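import Mathlib
import Cfsg.Agent.Lib.Helper50.BG36b
import Cfsg.Agent.Lib.Helper63.PLength

/-!
# Glue for BG Theorem 3.6 (S1444): from the internal situation `V ≤ K ≤ G` to the
external core theorem about `G ⧸ V` acting on `V`.
-/

set_option linter.unusedSectionVars false
set_option linter.unusedVariables false

namespace Cfsg.Agent.Lib.Helper90.BG36Glue

variable {G : Type*} [Group G]

/-- The conjugation action of `G ⧸ V` on an abelian normal subgroup `V`. -/
noncomputable def quotAct (V : Subgroup G) [V.Normal]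
    (hVc : ∀ a ∈ V, ∀ b ∈ V, a * b = b * a) : (G ⧸ V) →* MulAut ↥V :=
  QuotientGroup.lift V (MulAut.conjNormal : G →* MulAut ↥V) (by
    intro g hg
    rw [MonoidHom.mem_ker]
    ext v
    rw [MulAut.conjNormal_apply]
    have := hVc g hg v v.2
    simp only [MulAut.one_apply]
    rw [this, mul_inv_cancel_right])

theorem quotAct_mk (V : Subgroup G) [V.Normal]
    (hVc : ∀ a ∈ V, ∀ b ∈ V, a * b = b * a) (g : G) (v : ↥V) :
    ((quotAct V hVc (QuotientGroup.mk' V g) v : ↥V) : G) = g * v * g⁻¹ := by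
  unfold quotAct
  rw [QuotientGroup.mk'_apply, QuotientGroup.lift_mk, MulAut.conjNormal_apply]

theorem glue_of_core [Finite G] (p r : ℕ) [Fact p.Prime] (hr : r.Prime) (hpr : p ≠ r)
    (V K : Subgroup G) [V.Normal] [K.Normal] (hVK : V ≤ K)
    (hVc : ∀ a ∈ V, ∀ b ∈ V, a * b = b * a) (hVp : ∀ a ∈ V, a ^ p = 1)
    (hCV : K ⊓ Subgroup.centralizer (V : Set G) ≤ V)
    (hOp : ∀ N : Subgroup G, N ≤ K → IsPGroup p N →
      K ≤ Subgroup.normalizer (N : Set G) → N ≤ V)
    (hsolv : Group.IsSolvable K) (hodd : Odd (Nat.card K)) (y : G) (hyr : orderOf y = r)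
    (hrK : ¬ (r ∣ Nat.card K))
    (hZ : IsZGroup ↥(K ⊓ Subgroup.centralizer ({y} : Set G)))
    (hfix : Nat.card ↥(V ⊓ Subgroup.centralizer ({y} : Set G)) ≤ p)
    (hpC : ∀ t ∈ K, t * y = y * t → t ^ p ∈ V → t ∈ V)
    (hcore : ∀ (psi : (G ⧸ V) →* MulAut ↥V) (Kb : Subgroup (G ⧸ V)) (yb : G ⧸ V),
      (∀ k ∈ Kb, yb * k * yb⁻¹ ∈ Kb) → orderOf yb = r → ¬ (r ∣ Nat.card Kb) →
      Odd (Nat.card Kb) → Group.IsSolvable Kb → (∀ k ∈ Kb, psi k = 1 → k = 1) →
      (∀ N : Subgroup (G ⧸ V), N ≤ Kb → IsPGroup p N →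
        (∀ k ∈ Kb, ∀ n ∈ N, k * n * k⁻¹ ∈ N) → N = ⊥) →
      (∀ q, q.Prime → ∀ S : Subgroup (G ⧸ V), S ≤ Kb → IsPGroup q S →
        (∀ s ∈ S, s * yb = yb * s) → IsCyclic S) →
      Nat.card {v : ↥V // psi yb v = v} ≤ p →
      (∀ k ∈ Kb, k * yb = yb * k → k ^ p = 1 → k = 1) → ¬ (p ∣ Nat.card Kb)) :
    ¬ (p ∣ V.relIndex K) := by
  classical
  have hp : p.Prime := Fact.out
  have hVpg : IsPGroup p V := by
    rintro ⟨v, hv⟩
    refine ⟨1, ?_⟩
    ext
    simpa using hVp v hv
  have hrV : ¬ r ∣ Nat.card V := by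
    intro h
    obtain ⟨n, hn⟩ := IsPGroup.iff_card.1 hVpg
    rw [hn] at h
    exact hpr ((Nat.prime_dvd_prime_iff_eq hr hp).1 (hr.dvd_of_dvd_pow h)).symm
  have : Fact r.Prime := ⟨hr⟩
  have hzp : IsPGroup r (Subgroup.zpowers y) := by
    apply IsPGroup.of_card (n := 1)
    rw [Nat.card_zpowers, hyr, pow_one]
  -- lifting of centralizers
  have hlift : ∀ g : G, QuotientGroup.mk' V g * QuotientGroup.mk' V y
      = QuotientGroup.mk' V y * QuotientGroup.mk' V g → ∃ n ∈ V, (g * n) * y = y * (g * n) := by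
    intro g hg
    obtain ⟨n, hn, hfx⟩ := Cfsg.Agent.Lib.Helper50.BG36b.cent_lift (Subgroup.zpowers y) V hzp hrV g
      (by
        intro a ha
        obtain ⟨k, rfl⟩ := Subgroup.mem_zpowers_iff.1 ha
        rw [map_zpow]
        exact ((Commute.zpow_right (show Commute (QuotientGroup.mk' V g)
          (QuotientGroup.mk' V y) from hg) k).eq).symm)
    exact ⟨n, hn, (hfx y (Subgroup.mem_zpowers y)).symm⟩
  rw [Cfsg.Agent.Lib.Helper63.PLength.relIndex_eq_card_map]
  have hKb_mem : ∀ k ∈ K.map (QuotientGroup.mk' V), ∃ g ∈ K, QuotientGroup.mk' V g = k := by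
    intro k hk
    exact Subgroup.mem_map.1 hk
  have hmk_one : ∀ g : G, QuotientGroup.mk' V g = 1 ↔ g ∈ V := by
    intro g
    rw [QuotientGroup.mk'_apply, QuotientGroup.eq_one_iff]
  have hmem_of_mk : ∀ g : G, QuotientGroup.mk' V g ∈ K.map (QuotientGroup.mk' V) → g ∈ K := by
    intro g hg
    obtain ⟨k, hk, hkg⟩ := Subgroup.mem_map.1 hg
    have h1 : QuotientGroup.mk' V (k⁻¹ * g) = 1 := by
      rw [map_mul, map_inv, hkg, inv_mul_cancel]
    have h2 : k⁻¹ * g ∈ K := hVK ((hmk_one _).1 h1)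
    have h3 : k * (k⁻¹ * g) ∈ K := K.mul_mem hk h2
    rwa [mul_inv_cancel_left] at h3
  refine hcore (quotAct V hVc) (K.map (QuotientGroup.mk' V)) (QuotientGroup.mk' V y)
    ?_ ?_ ?_ ?_ ?_ ?_ ?_ ?_ ?_ ?_
  · -- normalised by yb
    intro k hk
    obtain ⟨g, hg, rfl⟩ := hKb_mem k hk
    refine Subgroup.mem_map.2 ⟨y * g * y⁻¹, ?_, ?_⟩
    · exact (inferInstance : K.Normal).conj_mem g hg y
    · simp only [map_mul, map_inv]
  · -- order
    have hdvd : orderOf (QuotientGroup.mk' V y) ∣ r := by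
      rw [← hyr]
      exact orderOf_map_dvd _ y
    rcases (Nat.dvd_prime hr).1 hdvd with h1 | h1
    · exfalso
      rw [orderOf_eq_one_iff, hmk_one] at h1
      apply hrK
      rw [← hyr]
      have : y ∈ K := hVK h1
      have h2 := Subgroup.orderOf_dvd_natCard K this
      exact h2
    · exact h1
  · intro h
    exact hrK (h.trans (Subgroup.card_map_dvd _ _))
  · exact Odd.of_dvd_nat hodd (Subgroup.card_map_dvd _ _)
  · exact Group.isSolvable_of_surjective ((QuotientGroup.mk' V).subgroupMap_surjective K)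
  · -- faithful
    intro k hk hk1
    obtain ⟨g, hg, rfl⟩ := hKb_mem k hk
    rw [hmk_one]
    apply hCV
    refine ⟨hg, Subgroup.mem_centralizer_iff.2 ?_⟩
    intro v hv
    have h1 := quotAct_mk V hVc g ⟨v, hv⟩
    rw [hk1] at h1
    simp only [MulAut.one_apply] at h1
    -- h1 : v = g * v * g⁻¹
    have h2 : g * v * g⁻¹ * g = v * g := by rw [← h1]
    rw [inv_mul_cancel_right] at h2
    exact h2.symm
  · -- O_p
    intro N hN hNp hNn
    have hcomap_le : N.comap (QuotientGroup.mk' V) ≤ K := by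
      intro g hg
      exact hmem_of_mk g (hN hg)
    have hcomap_p : IsPGroup p (N.comap (QuotientGroup.mk' V)) := by
      apply hNp.comap_of_ker_isPGroup
      rw [QuotientGroup.ker_mk']
      exact hVpg
    have hcomap_n : K ≤ Subgroup.normalizer ((N.comap (QuotientGroup.mk' V) : Subgroup G) : Set G) := by
      intro k hk
      rw [Subgroup.mem_normalizer_iff]
      intro n
      simp only [Subgroup.mem_comap, map_mul, map_inv]
      have hkb : QuotientGroup.mk' V k ∈ K.map (QuotientGroup.mk' V) :=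
        Subgroup.mem_map_of_mem _ hk
      constructor
      · intro hn
        exact hNn _ hkb _ hn
      · intro hn
        have hkb' : (QuotientGroup.mk' V k)⁻¹ ∈ K.map (QuotientGroup.mk' V) := inv_mem hkb
        have := hNn _ hkb' _ hn
        simpa [mul_assoc] using this
    have hle := hOp _ hcomap_le hcomap_p hcomap_n
    rw [Subgroup.eq_bot_iff_forall]
    intro n hn
    obtain ⟨g, rfl⟩ := QuotientGroup.mk'_surjective V n
    rw [hmk_one]
    exact hle hn
  · -- cyclic Sylows of the centralizer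
    intro q hq S hS hSq hSy
    have : Fact q.Prime := ⟨hq⟩
    obtain ⟨f, hf⟩ : ∃ f : ↥(K ⊓ Subgroup.centralizer ({y} : Set G)) →* G ⧸ V,
        f = (QuotientGroup.mk' V).comp (Subgroup.subtype _) := ⟨_, rfl⟩
    have hSle : S ≤ f.range := by
      intro s hs
      obtain ⟨g, hg, rfl⟩ := hKb_mem s (hS hs)
      obtain ⟨n, hn, hgn⟩ := hlift g (hSy _ hs)
      refine ⟨⟨g * n, K.mul_mem hg (hVK hn), Subgroup.mem_centralizer_iff.2 ?_⟩, ?_⟩
      · intro h hh
        rw [Set.mem_singleton_iff] at hh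
        rw [hh]
        exact hgn.symm
      · rw [hf]
        simp only [MonoidHom.coe_comp, Function.comp_apply, Subgroup.coe_subtype, map_mul]
        rw [(hmk_one n).2 hn, mul_one]
    have hmap : (S.comap f).map f = S := Subgroup.map_comap_eq_self hSle
    have hZT : IsZGroup ↥(S.comap f) := inferInstance
    have hZS : IsZGroup ↥((S.comap f).map f) :=
      IsZGroup.of_surjective (f.subgroupMap_surjective (S.comap f))
    rw [hmap] at hZS
    have hS' : IsPGroup q (⊤ : Subgroup ↥S) := by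
      intro ⟨s, _⟩
      obtain ⟨k, hk⟩ := hSq s
      exact ⟨k, by ext; simpa using congrArg Subtype.val hk⟩
    have hcyc : IsCyclic ↥(⊤ : Subgroup ↥S) := hS'.isCyclic_of_isZGroup
    exact isCyclic_of_surjective _ (Subgroup.topEquiv (G := ↥S)).surjective
  · -- fixed points
    have hinj : Function.Injective (fun v : {v : ↥V // quotAct V hVc (QuotientGroup.mk' V y) v = v} =>
        (⟨(v.1 : G), ⟨v.1.2, by
          refine Subgroup.mem_centralizer_iff.2 ?_
          intro h hh
          rw [Set.mem_singleton_iff] at hh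
          rw [hh]
          have h1 := quotAct_mk V hVc y v.1
          rw [v.2] at h1
          have h2 : y * (v.1 : G) * y⁻¹ * y = (v.1 : G) * y := by rw [← h1]
          rw [inv_mul_cancel_right] at h2
          exact h2⟩⟩ : ↥(V ⊓ Subgroup.centralizer ({y} : Set G)))) := by
      intro a b hab
      have h1 := congrArg Subtype.val hab
      exact Subtype.ext (Subtype.ext h1)
    exact (Nat.card_le_card_of_injective _ hinj).trans hfix
  · -- no elements of order p in the centralizer
    intro k hk hky hkp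
    obtain ⟨g, hg, rfl⟩ := hKb_mem k hk
    obtain ⟨n, hn, hgn⟩ := hlift g hky
    have hgnK : g * n ∈ K := K.mul_mem hg (hVK hn)
    have hmk : QuotientGroup.mk' V (g * n) = QuotientGroup.mk' V g := by
      rw [map_mul, (hmk_one n).2 hn, mul_one]
    have hpow : (g * n) ^ p ∈ V := by
      rw [← hmk_one, map_pow, hmk]
      exact hkp
    have := hpC (g * n) hgnK hgn hpow
    rw [← hmk]
    exact (hmk_one _).2 this

end Cfsg.Agent.Lib.Helper90.BG36Glue
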