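import Mathlib

set_option autoImplicit false

namespace Cfsg.Agent.Lib.Helper90.Coset

/-- `x` fixes the coset `g H` exactly when `g⁻¹ x g ∈ H`. -/
theorem smul_coset_eq_iff {G : Type*} [Group G] (H : Subgroup G) (x g : G) :
    x • (g : G ⧸ H) = (g : G ⧸ H) ↔ g⁻¹ * x * g ∈ H := by
  rw [eq_comm]
  change ((g : G) : G ⧸ H) = ((x * g : G) : G ⧸ H) ↔ _
  rw [QuotientGroup.eq]
  simp [mul_assoc]

/-- If `x ∈ H` fixes a unique coset of `H`, then `g⁻¹ x g ∈ H` forces `g ∈ H`. -/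
theorem mem_of_conj_mem_of_unique {G : Type*} [Group G] (H : Subgroup G) (x : G) (hx : x ∈ H)
    (hu : ∃! c : G ⧸ H, x • c = c) (g : G) (hg : g⁻¹ * x * g ∈ H) : g ∈ H := by
  obtain ⟨c, _, huniq⟩ := hu
  have e1 : ((1 : G) : G ⧸ H) = c := huniq _ (by
    show x • ((1 : G) : G ⧸ H) = ((1 : G) : G ⧸ H)
    rw [smul_coset_eq_iff]; simpa using hx)
  have e2 : ((g : G) : G ⧸ H) = c := huniq _ (by
    show x • ((g : G) : G ⧸ H) = ((g : G) : G ⧸ H)
    rw [smul_coset_eq_iff]; exact hg)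
  have e3 : ((1 : G) : G ⧸ H) = ((g : G) : G ⧸ H) := e1.trans e2.symm
  rw [QuotientGroup.eq] at e3
  simpa using e3

/-- If `x` fixes a unique coset of `H`, some conjugate `g⁻¹ x g` lies in `H`. -/
theorem exists_conj_mem_of_unique {G : Type*} [Group G] (H : Subgroup G) (x : G)
    (hu : ∃! c : G ⧸ H, x • c = c) : ∃ g : G, g⁻¹ * x * g ∈ H := by
  obtain ⟨c, hc, _⟩ := hu
  induction c using QuotientGroup.induction_on with
  | H g =>
    have hc' : x • (g : G ⧸ H) = (g : G ⧸ H) := hc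
    exact ⟨g, (smul_coset_eq_iff H x g).mp hc'⟩

end Cfsg.Agent.Lib.Helper90.Coset
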