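import Mathlib
import Cfsg.Agent.Lib.Helper28.DxStmt

/-!
helper90: piece `CENTT2` of S1615 (for helper28): the member `d` commutes with the whole second
twin class.
-/

set_option autoImplicit false

namespace Cfsg.Agent.Lib.Helper90.DxCENTT2

open Cfsg Cfsg.Agent.Lib.Helper21.W3Class Cfsg.Agent.Lib.Helper28 Cfsg.Agent.Lib.Helper28.DxStmt

universe u

theorem inv_eq_of_sq' {G : Type u} [Group G] {a : G} (h : a * a = 1) : a⁻¹ = a :=
  inv_eq_of_mul_eq_one_left h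

theorem main : Cfsg.Agent.Lib.Helper28.DxStmt.CentT2Piece.{u} := by
  intro hF7 G _ _ D K T hK p hp u hu v hv huv hfull b hb d hd hdp hdb w' hw' hdw' a ha
  have hbD : b ∈ D := hb.1.1
  have hb2 : b⁻¹ = b := inv_eq_of_sq' (T.sq b hbD)
  have hu2 : u⁻¹ = u := inv_eq_of_sq' (T.sq u hu.1)
  have ha2 : a⁻¹ = a := inv_eq_of_sq' (T.sq a ha.1.1)
  -- first application: `d ∈ W b p`
  have hpb : p ∈ Pt D b := ⟨hp, fun h => hb.1.2.1 h.symm, hb.1.2.2.symm⟩
  have hdb' : d ∈ Pt D b := by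
    refine ⟨hd, ?_, hdb.symm⟩
    rintro rfl
    exact hdp hb.1.2.2.symm
  have hw'b : w' ∈ W D K p b := by
    refine ⟨hw'.1, ?_⟩
    have h1 : (w' * u) * (b * u)⁻¹ ∈ K p := (K p).mul_mem hw'.2 ((K p).inv_mem hb.2)
    have h2 : (w' * u) * (b * u)⁻¹ = w' * b := by
      rw [mul_inv_rev, hb2]; group
    rwa [h2] at h1
  have hdW : d ∈ W D K b p := hF7 T hK b hbD p hpb d hdb' hdp w' hw'b hdw'
  -- second application
  by_contra hnc
  have hab : ¬ Commute a b := fun h => hfull b hb a ha h.symm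
  have haW : a ∈ W D K p b := hF7 T hK p hp b hb.1 a ha.1 hab d hdW hnc
  have h1 : (b * u)⁻¹ * (a * b)⁻¹ * (a * v) ∈ K p :=
    (K p).mul_mem ((K p).mul_mem ((K p).inv_mem hb.2) ((K p).inv_mem haW.2)) ha.2
  have h2 : (b * u)⁻¹ * (a * b)⁻¹ * (a * v) = u * v := by
    rw [mul_inv_rev, mul_inv_rev, hb2, hu2, ha2]
    have e1 : u * b * (b * a) * (a * v) = u * (b * b) * (a * a) * v := by group
    rw [e1, T.sq b hbD, T.sq a ha.1.1]; group
  rw [h2] at h1
  exact huv h1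

end Cfsg.Agent.Lib.Helper90.DxCENTT2
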