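import Mathlib
import Cfsg.Agent.Lib.Helper28.DxStmt

/-!
helper90: piece `FULLNC` of S1615 (for helper28): two twin classes joined by a non-commuting pair
are joined completely.
-/

set_option autoImplicit false

namespace Cfsg.Agent.Lib.Helper90.DxFULLNC

open Cfsg Cfsg.Agent.Lib.Helper21.W3Class Cfsg.Agent.Lib.Helper28 Cfsg.Agent.Lib.Helper28.DxStmt

universe u

theorem inv_eq_of_sq {G : Type u} [Group G] {a : G} (h : a * a = 1) : a⁻¹ = a :=
  inv_eq_of_mul_eq_one_left h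

theorem main : Cfsg.Agent.Lib.Helper28.DxStmt.FullNCPiece.{u} := by
  intro hTB G _ _ D K T hK p hp u hu v hv hnc huv u' hu' v' hv'
  have hu2 : u⁻¹ = u := inv_eq_of_sq (T.sq u hu.1)
  have hv2 : v⁻¹ = v := inv_eq_of_sq (T.sq v hv.1)
  -- `v ∉ W p u`
  have hvW : v ∉ W D K p u := by
    intro h
    have h1 : (v * u)⁻¹ ∈ K p := (K p).inv_mem h.2
    rw [mul_inv_rev, hu2, hv2] at h1
    exact huv h1
  have huW : u ∈ W D K p u := ⟨hu, by rw [T.sq u hu.1]; exact (K p).one_mem⟩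
  have hvW' : v ∈ W D K p v := ⟨hv, by rw [T.sq v hv.1]; exact (K p).one_mem⟩
  -- `v` commutes with no member of `W p u`
  have h3 : ¬ Commute v u' := by
    intro h
    exact hnc (hTB T hK p hp u hu v hv hvW u' hu' u huW h).symm
  -- `u' ∉ W p v`
  have hu'W : u' ∉ W D K p v := by
    intro h
    have h1 : (u' * u)⁻¹ * (u' * v) ∈ K p := (K p).mul_mem ((K p).inv_mem hu'.2) h.2
    have h2 : (u' * u)⁻¹ * (u' * v) = u * v := by
      rw [mul_inv_rev, hu2]; group
    rw [h2] at h1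
    exact huv h1
  intro h
  exact h3 (hTB T hK p hp v hv u' hu'.1 hu'W v' hv' v hvW' h).symm

end Cfsg.Agent.Lib.Helper90.DxFULLNC
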