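import Mathlib
import Cfsg.Agent.Lib.Helper45.EPStmt
import Cfsg.Agent.Lib.Helper44.NegPairs

set_option autoImplicit false

/-!
S5988 piece NEGSQFIXB1 (helper90).  Generic statement `negsq_gen`: `F` finite of odd
characteristic, `Q` a quadratic form on `V`, `g` linear with `Q (g v) = Q v`, `g (g v) = -v`;
then every `g`-invariant nondegenerate `W` of dimension `4 n` contains a totally singular
subspace of dimension `2 n`.
-/

namespace Cfsg.Agent.Lib.Helper90.EPNEGSQFIXB1

open Module QuadraticMap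

universe u

section gen

variable {F : Type u} [Field F] {V : Type*} [AddCommGroup V] [Module F V]

theorem finrank_sup_span [FiniteDimensional F V] (S : Submodule F V) {x : V} (hx : x ∉ S) :
    finrank F ↥(S ⊔ Submodule.span F {x}) = finrank F ↥S + 1 := by
  have hx0 : x ≠ 0 := fun h => hx (h ▸ S.zero_mem)
  have hd : S ⊓ Submodule.span F {x} = ⊥ := by
    rw [← disjoint_iff]
    exact (Submodule.disjoint_span_singleton' hx0).mpr hx
  have h := Submodule.finrank_sup_add_finrank_inf_eq S (Submodule.span F {x})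
  rw [hd, finrank_bot, finrank_span_singleton hx0] at h
  omega

theorem finrank_inf_ker [FiniteDimensional F V] (S : Submodule F V) (f : V →ₗ[F] F) {x : V}
    (hxS : x ∈ S) (hfx : f x ≠ 0) :
    finrank F ↥(S ⊓ LinearMap.ker f) + 1 = finrank F ↥S := by
  have hx : x ∉ S ⊓ LinearMap.ker f := fun h => hfx (LinearMap.mem_ker.mp h.2)
  have hS : (S ⊓ LinearMap.ker f) ⊔ Submodule.span F {x} = S := by
    apply le_antisymm
    · exact sup_le inf_le_left ((Submodule.span_singleton_le_iff_mem x S).mpr hxS)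
    · intro s hs
      have h1 : s - (f s / f x) • x ∈ S ⊓ LinearMap.ker f := by
        refine ⟨S.sub_mem hs (S.smul_mem _ hxS), ?_⟩
        show f (s - (f s / f x) • x) = 0
        rw [map_sub, map_smul, smul_eq_mul, div_mul_cancel₀ _ hfx, sub_self]
      have h2 : (f s / f x) • x ∈ Submodule.span F {x} :=
        Submodule.smul_mem _ _ (Submodule.mem_span_singleton_self x)
      have h3 : s = (s - (f s / f x) • x) + (f s / f x) • x := by abel
      rw [h3]
      exact Submodule.add_mem_sup h1 h2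
  have h := finrank_sup_span _ hx
  rw [hS] at h
  omega

theorem exists_sq_add_sq [Fintype F] (hodd : Fintype.card F % 2 = 1) (c : F) :
    ∃ a b : F, a * a + b * b = c := by
  classical
  obtain ⟨a, b, hab⟩ := FiniteField.exists_root_sum_quadratic (R := F)
    (f := Polynomial.X ^ 2) (g := Polynomial.X ^ 2 - Polynomial.C c)
    (Polynomial.degree_X_pow 2) (Polynomial.degree_X_pow_sub_C (by decide) _) hodd
  refine ⟨a, b, ?_⟩
  simp only [Polynomial.eval_C, Polynomial.eval_X, Polynomial.eval_pow, Polynomial.eval_sub]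
    at hab
  linear_combination hab

variable (Q : QuadraticForm F V) (g : V →ₗ[F] V)

theorem polar_g (hgQ : ∀ v, Q (g v) = Q v) (u v : V) :
    polar Q (g u) (g v) = polar Q u v := by
  simp only [QuadraticMap.polar, ← map_add, hgQ]

theorem polar_g_right (hgQ : ∀ v, Q (g v) = Q v) (hgg : ∀ v, g (g v) = -v) (u v : V) :
    polar Q u (g v) = -polar Q (g u) v := by
  rw [← polar_g Q g hgQ u (g v), hgg, QuadraticMap.polar_neg_right]

theorem polar_self_g (h2 : (2 : F) ≠ 0) (hgQ : ∀ v, Q (g v) = Q v) (hgg : ∀ v, g (g v) = -v)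
    (u : V) : polar Q u (g u) = 0 := by
  have h := polar_g_right Q g hgQ hgg u u
  rw [QuadraticMap.polar_comm Q (g u) u] at h
  have h3 : (2 : F) * polar Q u (g u) = 0 := by linear_combination h
  rcases mul_eq_zero.mp h3 with h4 | h4
  · exact absurd h4 h2
  · exact h4

theorem polar_self' (u : V) : polar Q u u = 2 * Q u := by
  rw [QuadraticMap.polar_self, two_smul, two_mul]

theorem exists_nonsing {W : Submodule F V} (hW : W ≠ ⊥)
    (hnd : ∀ w ∈ W, w ≠ 0 → ∃ x ∈ W, polar Q x w ≠ 0) : ∃ v ∈ W, Q v ≠ 0 := by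
  by_contra hcon
  have hall : ∀ v ∈ W, Q v = 0 := fun v hv => by
    by_contra h
    exact hcon ⟨v, hv, h⟩
  obtain ⟨w, hw, hw0⟩ := Submodule.exists_mem_ne_zero_of_ne_bot hW
  obtain ⟨x, hx, hxw⟩ := hnd w hw hw0
  apply hxw
  unfold QuadraticMap.polar
  rw [hall _ (W.add_mem hx hw), hall _ hx, hall _ hw]
  simp

theorem step [FiniteDimensional F V] (h2 : (2 : F) ≠ 0) (hgQ : ∀ v, Q (g v) = Q v)
    (hgg : ∀ v, g (g v) = -v) {W : Submodule F V} (hinv : ∀ w ∈ W, g w ∈ W)
    (hnd : ∀ w ∈ W, w ≠ 0 → ∃ x ∈ W, polar Q x w ≠ 0) {v : V} (hv : v ∈ W) (hQv : Q v ≠ 0) :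
    ∃ W₁ : Submodule F V, W₁ ≤ W ∧ (∀ w ∈ W₁, g w ∈ W₁) ∧
      (∀ w ∈ W₁, w ≠ 0 → ∃ x ∈ W₁, polar Q x w ≠ 0) ∧
      finrank F ↥W₁ + 2 = finrank F ↥W ∧
      ∀ y ∈ W₁, polar Q v y = 0 ∧ polar Q (g v) y = 0 := by
  have hc : (2 : F) * Q v ≠ 0 := mul_ne_zero h2 hQv
  have hgv : polar Q v (g v) = 0 := polar_self_g Q g h2 hgQ hgg v
  have hgv' : polar Q (g v) v = 0 := by rw [QuadraticMap.polar_comm]; exact hgv
  have hvv : polar Q v v = 2 * Q v := polar_self' Q v
  have hgvgv : polar Q (g v) (g v) = 2 * Q v := by rw [polar_self' Q (g v), hgQ]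
  have hmem : ∀ y, y ∈ (W ⊓ LinearMap.ker (polarBilin Q v)) ⊓ LinearMap.ker (polarBilin Q (g v))
      ↔ y ∈ W ∧ polar Q v y = 0 ∧ polar Q (g v) y = 0 := by
    intro y
    rw [Submodule.mem_inf, Submodule.mem_inf, LinearMap.mem_ker, LinearMap.mem_ker,
      QuadraticMap.polarBilin_apply_apply, QuadraticMap.polarBilin_apply_apply, and_assoc]
  refine ⟨(W ⊓ LinearMap.ker (polarBilin Q v)) ⊓ LinearMap.ker (polarBilin Q (g v)),
    fun y hy => ((hmem y).mp hy).1, ?_, ?_, ?_, fun y hy => ((hmem y).mp hy).2⟩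
  · intro y hy
    obtain ⟨hyW, hy1, hy2⟩ := (hmem y).mp hy
    refine (hmem _).mpr ⟨hinv y hyW, ?_, ?_⟩
    · rw [polar_g_right Q g hgQ hgg, hy2, neg_zero]
    · rw [polar_g Q g hgQ, hy1]
  · intro w hw hw0
    obtain ⟨hwW, hw1, hw2⟩ := (hmem w).mp hw
    obtain ⟨x, hxW, hxw⟩ := hnd w hwW hw0
    refine ⟨x - (polar Q v x / (2 * Q v)) • v - (polar Q (g v) x / (2 * Q v)) • g v,
      (hmem _).mpr ⟨W.sub_mem (W.sub_mem hxW (W.smul_mem _ hv)) (W.smul_mem _ (hinv v hv)),
        ?_, ?_⟩, ?_⟩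
    · rw [QuadraticMap.polar_sub_right, QuadraticMap.polar_sub_right,
        QuadraticMap.polar_smul_right, QuadraticMap.polar_smul_right, hvv, hgv, smul_eq_mul,
        smul_eq_mul, div_mul_cancel₀ _ hc]
      ring
    · rw [QuadraticMap.polar_sub_right, QuadraticMap.polar_sub_right,
        QuadraticMap.polar_smul_right, QuadraticMap.polar_smul_right, hgvgv, hgv', smul_eq_mul,
        smul_eq_mul, div_mul_cancel₀ _ hc]
      ring
    · rw [QuadraticMap.polar_sub_left, QuadraticMap.polar_sub_left,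
        QuadraticMap.polar_smul_left, QuadraticMap.polar_smul_left, hw1, hw2, smul_eq_mul,
        smul_eq_mul, mul_zero, mul_zero, sub_zero, sub_zero]
      exact hxw
  · have hA : finrank F ↥(W ⊓ LinearMap.ker (polarBilin Q v)) + 1 = finrank F ↥W := by
      apply finrank_inf_ker W (polarBilin Q v) hv
      rw [QuadraticMap.polarBilin_apply_apply, hvv]
      exact hc
    have hB : finrank F ↥((W ⊓ LinearMap.ker (polarBilin Q v))
        ⊓ LinearMap.ker (polarBilin Q (g v))) + 1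
        = finrank F ↥(W ⊓ LinearMap.ker (polarBilin Q v)) := by
      apply finrank_inf_ker (W ⊓ LinearMap.ker (polarBilin Q v)) (polarBilin Q (g v))
        (x := g v)
      · refine ⟨hinv v hv, ?_⟩
        show (polarBilin Q v) (g v) = 0
        rw [QuadraticMap.polarBilin_apply_apply]
        exact hgv
      · rw [QuadraticMap.polarBilin_apply_apply, hgvgv]
        exact hc
    omega

theorem ts_sup_span {S : Submodule F V} (hS : ∀ s ∈ S, Q s = 0) {x : V} (hx : Q x = 0)
    (hSx : ∀ s ∈ S, polar Q s x = 0) : ∀ z ∈ S ⊔ Submodule.span F {x}, Q z = 0 := by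
  intro z hz
  obtain ⟨s, hs, t, ht, rfl⟩ := Submodule.mem_sup.mp hz
  obtain ⟨c, rfl⟩ := Submodule.mem_span_singleton.mp ht
  rw [QuadraticMap.map_add (⇑Q) s (c • x), hS s hs, QuadraticMap.map_smul, hx,
    QuadraticMap.polar_smul_right, hSx s hs]
  simp

theorem negsq_gen [Fintype F] [FiniteDimensional F V] (h2 : (2 : F) ≠ 0)
    (hodd : Fintype.card F % 2 = 1) (hgQ : ∀ v, Q (g v) = Q v) (hgg : ∀ v, g (g v) = -v) :
    ∀ (n : ℕ) (W : Submodule F V), finrank F ↥W = 4 * n → (∀ w ∈ W, g w ∈ W) →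
      (∀ w ∈ W, w ≠ 0 → ∃ x ∈ W, polar Q x w ≠ 0) →
      ∃ U : Submodule F V, U ≤ W ∧ (∀ u ∈ U, Q u = 0) ∧ 2 * finrank F ↥U = finrank F ↥W := by
  intro n
  induction n with
  | zero =>
    intro W hW _ _
    refine ⟨⊥, bot_le, ?_, ?_⟩
    · intro u hu
      rw [(Submodule.mem_bot F).mp hu, map_zero]
    · rw [finrank_bot, hW]
  | succ n ih =>
    intro W hW hinv hnd
    have hWbot : W ≠ ⊥ := by
      intro h
      rw [h, finrank_bot] at hW
      omega
    obtain ⟨v, hv, hQv⟩ := exists_nonsing Q hWbot hnd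
    obtain ⟨W₁, hW₁W, hinv₁, hnd₁, hfr₁, hperp₁⟩ := step Q g h2 hgQ hgg hinv hnd hv hQv
    have hW₁bot : W₁ ≠ ⊥ := by
      intro h
      rw [h, finrank_bot] at hfr₁
      omega
    obtain ⟨w, hw, hQw⟩ := exists_nonsing Q hW₁bot hnd₁
    obtain ⟨W₂, hW₂W₁, hinv₂, hnd₂, hfr₂, hperp₂⟩ := step Q g h2 hgQ hgg hinv₁ hnd₁ hw hQw
    obtain ⟨U₂, hU₂, hts₂, hfrU₂⟩ := ih W₂ (by omega) hinv₂ hnd₂
    obtain ⟨a, b, hab⟩ := exists_sq_add_sq hodd (-Q v / Q w)
    have hc : (2 : F) * Q v ≠ 0 := mul_ne_zero h2 hQv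
    have hvw : polar Q v w = 0 := (hperp₁ w hw).1
    have hgvw : polar Q (g v) w = 0 := (hperp₁ w hw).2
    have hvgw : polar Q v (g w) = 0 := by
      rw [polar_g_right Q g hgQ hgg, hgvw, neg_zero]
    have hgvgw : polar Q (g v) (g w) = 0 := by
      rw [polar_g Q g hgQ, hvw]
    have hwgw : polar Q w (g w) = 0 := polar_self_g Q g h2 hgQ hgg w
    have hvgv : polar Q v (g v) = 0 := polar_self_g Q g h2 hgQ hgg v
    have hgvv : polar Q (g v) v = 0 := by rw [QuadraticMap.polar_comm]; exact hvgv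
    obtain ⟨u, hu⟩ : ∃ u : V, u = v + (a • w + b • g w) := ⟨_, rfl⟩
    have huW : u ∈ W := by
      rw [hu]
      exact W.add_mem hv (W.add_mem (W.smul_mem _ (hW₁W hw)) (W.smul_mem _ (hW₁W (hinv₁ w hw))))
    have hQu : Q u = 0 := by
      rw [hu, QuadraticMap.map_add (⇑Q) v (a • w + b • g w),
        QuadraticMap.map_add (⇑Q) (a • w) (b • g w), QuadraticMap.map_smul,
        QuadraticMap.map_smul, hgQ, QuadraticMap.polar_add_right, QuadraticMap.polar_smul_right,
        QuadraticMap.polar_smul_right, QuadraticMap.polar_smul_left,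
        QuadraticMap.polar_smul_right, hvw, hvgw, hwgw]
      simp only [smul_eq_mul, mul_zero, add_zero]
      have h3 : (a * a + b * b) * Q w = -Q v := by
        rw [hab, div_mul_cancel₀ _ hQw]
      linear_combination h3
    have hQgu : Q (g u) = 0 := by rw [hgQ, hQu]
    have hugu : polar Q u (g u) = 0 := polar_self_g Q g h2 hgQ hgg u
    have hvu : polar Q v u = 2 * Q v := by
      rw [hu, QuadraticMap.polar_add_right, QuadraticMap.polar_add_right,
        QuadraticMap.polar_smul_right, QuadraticMap.polar_smul_right, hvw, hvgw,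
        polar_self' Q v]
      simp
    have hgvu : polar Q (g v) u = 0 := by
      rw [hu, QuadraticMap.polar_add_right, QuadraticMap.polar_add_right,
        QuadraticMap.polar_smul_right, QuadraticMap.polar_smul_right, hgvw, hgvgw, hgvv]
      simp
    have hW₂W : W₂ ≤ W := hW₂W₁.trans hW₁W
    have huy : ∀ y ∈ W₂, polar Q u y = 0 := by
      intro y hy
      rw [hu, QuadraticMap.polar_add_left, QuadraticMap.polar_add_left,
        QuadraticMap.polar_smul_left, QuadraticMap.polar_smul_left, (hperp₁ y (hW₂W₁ hy)).1,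
        (hperp₂ y hy).1, (hperp₂ y hy).2]
      simp
    have hguy : ∀ y ∈ W₂, polar Q (g u) y = 0 := by
      intro y hy
      have h := polar_g_right Q g hgQ hgg u y
      rw [huy _ (hinv₂ y hy)] at h
      have h' : polar Q (g u) y = -0 := by rw [h, neg_neg]
      rw [h', neg_zero]
    -- the totally singular subspace
    have hts₃ : ∀ z ∈ U₂ ⊔ Submodule.span F {u}, Q z = 0 :=
      ts_sup_span Q hts₂ hQu (fun s hs => by
        rw [QuadraticMap.polar_comm]; exact huy s (hU₂ hs))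
    have hts₄ : ∀ z ∈ (U₂ ⊔ Submodule.span F {u}) ⊔ Submodule.span F {g u}, Q z = 0 := by
      apply ts_sup_span Q hts₃ hQgu
      intro s hs
      obtain ⟨y, hy, t, ht, rfl⟩ := Submodule.mem_sup.mp hs
      obtain ⟨c, rfl⟩ := Submodule.mem_span_singleton.mp ht
      rw [QuadraticMap.polar_add_left, QuadraticMap.polar_smul_left, hugu,
        QuadraticMap.polar_comm, hguy y (hU₂ hy)]
      simp
    have hu_not : u ∉ U₂ := by
      intro h
      have h1 := (hperp₁ u (hW₂W₁ (hU₂ h))).1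
      rw [hvu] at h1
      exact hc h1
    have hgu_not : g u ∉ U₂ ⊔ Submodule.span F {u} := by
      intro h
      obtain ⟨y, hy, t, ht, hyt⟩ := Submodule.mem_sup.mp h
      obtain ⟨c, rfl⟩ := Submodule.mem_span_singleton.mp ht
      have h1 : polar Q (g v) (g u) = 2 * Q v := by
        rw [polar_g Q g hgQ, hvu]
      rw [← hyt, QuadraticMap.polar_add_right, QuadraticMap.polar_smul_right, hgvu,
        (hperp₁ y (hW₂W₁ (hU₂ hy))).2] at h1
      apply hc
      rw [← h1]
      simp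
    refine ⟨(U₂ ⊔ Submodule.span F {u}) ⊔ Submodule.span F {g u}, ?_, hts₄, ?_⟩
    · refine sup_le (sup_le (hU₂.trans hW₂W) ?_) ?_
      · exact (Submodule.span_singleton_le_iff_mem u W).mpr huW
      · exact (Submodule.span_singleton_le_iff_mem (g u) W).mpr (hinv u huW)
    · rw [finrank_sup_span _ hgu_not, finrank_sup_span _ hu_not]
      omega

end gen

theorem main : Cfsg.Agent.Lib.Helper45.EPStmt.NegSqFixB1.{u} := by
  intro F _ _ hcard d x hx hxx W hnd hstab hW4
  classical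
  have hodd : Fintype.card F % 2 = 1 := by omega
  have h2 : (2 : F) ≠ 0 := by
    intro h
    have hc := @ringChar.eq F _ 2 (CharTwo.of_one_ne_zero_of_two_eq_zero one_ne_zero h)
    have := FiniteField.even_card_iff_char_two.mp hc
    omega
  obtain ⟨Q, hQ⟩ : ∃ Q : QuadraticForm F (Cfsg.Agent.Lib.Helper94.OPStmt.P d → F),
      Q = Cfsg.Agent.Lib.Helper44.NegPairs.plusQ d F := ⟨_, rfl⟩
  have hQc : ∀ v, Q v = Cfsg.quadFormPlus d F v := fun v => by rw [hQ]; rfl
  have hpol : ∀ v w, polar Q v w = polar (Cfsg.quadFormPlus d F) v w := fun v w => by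
    rw [hQ]; rfl
  obtain ⟨g, hg⟩ : ∃ g : (Cfsg.Agent.Lib.Helper94.OPStmt.P d → F) →ₗ[F]
      (Cfsg.Agent.Lib.Helper94.OPStmt.P d → F),
      g = Matrix.toLin' (x : Matrix (Cfsg.Agent.Lib.Helper94.OPStmt.P d)
        (Cfsg.Agent.Lib.Helper94.OPStmt.P d) F) := ⟨_, rfl⟩
  have hgQ : ∀ v, Q (g v) = Q v := by
    intro v
    rw [hQc, hQc, hg, Matrix.toLin'_apply]
    exact hx v v
  have hgg : ∀ v, g (g v) = -v := by
    intro v
    rw [hg, Matrix.toLin'_apply, Matrix.toLin'_apply, Matrix.mulVec_mulVec, hxx,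
      Matrix.neg_mulVec, Matrix.one_mulVec]
  obtain ⟨n, hn⟩ : ∃ n, Module.finrank F ↥W = 4 * n := ⟨Module.finrank F ↥W / 4, by omega⟩
  obtain ⟨U, hUW, hts, hfr⟩ := negsq_gen Q g h2 hodd hgQ hgg n W hn
    (fun w hw => by
      rw [hg]
      exact hstab (Submodule.mem_map_of_mem hw))
    (fun w hw hw0 => by
      obtain ⟨⟨y, hy, hyw⟩, -⟩ := hnd w hw hw0
      exact ⟨y, hy, by rw [hpol]; exact hyw⟩)
  exact ⟨U, hUW, fun u hu => by rw [← hQc]; exact hts u hu, hfr⟩

end Cfsg.Agent.Lib.Helper90.EPNEGSQFIXB1
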