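import Mathlib
import Cfsg.Prelude.Def_Solvable
import Cfsg.Prelude.Def_Transfer
import Cfsg.Prelude.Def_MonsterType
import Cfsg.Agent.Lib.Helper90.Basic
import Cfsg.Agent.Lib.Helper90.PGroup
import Cfsg.Agent.Lib.Helper90.Conj
import Cfsg.Agent.Lib.Helper90.Frattini2
import Cfsg.Agent.Lib.Helper90.ESData

set_option autoImplicit false

namespace Cfsg.Agent.Lib.Helper90.ESConv

open Cfsg.Agent.Lib.Helper90.ESData Cfsg.Agent.Lib.Helper90.Conj

variable {G : Type*} [Group G]

/-- The centre of a subgroup with the elementary data consists of `1` and `z`. -/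
theorem ESD.mem_center_iff {R : Subgroup G} {z : G} (hE : ESD R z) (c : ↥R) :
    c ∈ Subgroup.center ↥R ↔ c = 1 ∨ c = ⟨z, hE.zQ⟩ := by
  constructor
  · intro hc
    rw [Subgroup.mem_center_iff] at hc
    have h1 : ∀ q ∈ R, (c : G) * q = q * (c : G) := by
      intro q hq
      have := congrArg Subtype.val (hc ⟨q, hq⟩)
      simpa using this.symm
    rcases hE.cent (c : G) h1 with h | h
    · left; exact Subtype.ext h
    · right; exact Subtype.ext h
  · rintro (h | h)
    · rw [h]; exact Subgroup.one_mem _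
    · rw [h, Subgroup.mem_center_iff]
      intro q
      exact Subtype.ext (hE.zc q q.2)

/-- A non-abelian subgroup with the elementary data is an extraspecial 2-group. -/
theorem ESD.isExtraspecial [Finite G] {R : Subgroup G} {z : G} (hE : ESD R z)
    (hnonab : ∃ x ∈ R, ∃ y ∈ R, x * y ≠ y * x) : Cfsg.IsExtraspecial 2 ↥R := by
  have hzz' : (⟨z, hE.zQ⟩ : ↥R) * ⟨z, hE.zQ⟩ = 1 := Subtype.ext hE.zz
  have hz1' : (⟨z, hE.zQ⟩ : ↥R) ≠ 1 := fun h => hE.z1 (congrArg Subtype.val h)
  have hP : IsPGroup 2 ↥R := by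
    intro x
    refine ⟨2, ?_⟩
    apply Subtype.ext
    have e : ((x ^ 2 ^ 2 : ↥R) : G) = ((x : G) * (x : G)) * ((x : G) * (x : G)) := by
      simp only [Subgroup.coe_pow]
      norm_num
      rw [pow_succ, pow_succ, pow_succ, pow_one]
      group
    rw [e]
    rcases hE.sq (x : G) x.2 with h | h
    · rw [h]; simp
    · rw [h, hE.zz]; rfl
  have hcen : Subgroup.center ↥R = Subgroup.zpowers (⟨z, hE.zQ⟩ : ↥R) := by
    ext c
    rw [ESD.mem_center_iff hE, mem_zpowers_of_mul_self hzz']
  have hzcomm : ∃ x y : ↥R, x * y * x⁻¹ * y⁻¹ = ⟨z, hE.zQ⟩ := by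
    obtain ⟨x, hx, y, hy, hxy⟩ := hnonab
    refine ⟨⟨x, hx⟩, ⟨y, hy⟩, ?_⟩
    apply Subtype.ext
    rcases hE.comm x hx y hy with h | h
    · exfalso
      apply hxy
      have := congrArg (fun t => t * y * x) h
      simpa [mul_assoc] using this
    · exact h
  have hsqc : ∀ x : ↥R, x ^ 2 ∈ Subgroup.center ↥R := by
    intro x
    rw [ESD.mem_center_iff hE]
    rcases hE.sq (x : G) x.2 with h | h
    · left; apply Subtype.ext; simpa [pow_two] using h
    · right; apply Subtype.ext; simpa [pow_two] using h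
  have hcommc : ∀ u v : ↥R, u * v * u⁻¹ * v⁻¹ ∈ Subgroup.center ↥R := by
    intro u v
    rw [ESD.mem_center_iff hE]
    rcases hE.comm (u : G) u.2 (v : G) v.2 with h | h
    · left; apply Subtype.ext; simpa using h
    · right; apply Subtype.ext; simpa using h
  refine ⟨⟨hP, ?_, ?_⟩, ?_⟩
  · apply le_antisymm
    · exact Frattini2.frattini_le_of_sq_comm _ hsqc hcommc
    · rw [hcen, Subgroup.zpowers_le]
      obtain ⟨x, y, hxy⟩ := hzcomm
      rw [← hxy]
      exact Frattini2.commutator_mem_frattini hP x y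
  · apply le_antisymm
    · rw [commutator_eq_closure, Subgroup.closure_le]
      rintro _ ⟨u, v, rfl⟩
      rw [commutatorElement_def]
      exact hcommc u v
    · rw [hcen, Subgroup.zpowers_le]
      obtain ⟨x, y, hxy⟩ := hzcomm
      rw [← hxy, commutator_eq_closure]
      apply Subgroup.subset_closure
      exact ⟨x, y, (commutatorElement_def x y)⟩
  · rw [hcen, Nat.card_zpowers]
    have : Fact (Nat.Prime 2) := ⟨Nat.prime_two⟩
    exact orderOf_eq_prime (by rw [pow_two]; exact hzz') hz1'

/-- The image of the centre, for a subgroup with the elementary data. -/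
theorem ESD.mem_center_map_iff {R : Subgroup G} {z : G} (hE : ESD R z) (c : G) :
    c ∈ (Subgroup.center ↥R).map R.subtype ↔ c = 1 ∨ c = z := by
  constructor
  · rintro ⟨c', hc', rfl⟩
    rcases (ESD.mem_center_iff hE c').mp hc' with h | h
    · left; rw [h]; rfl
    · right; rw [h]; rfl
  · rintro (h | h)
    · rw [h]; exact Subgroup.one_mem _
    · rw [h]
      exact ⟨⟨z, hE.zQ⟩, (ESD.mem_center_iff hE _).mpr (Or.inr rfl), rfl⟩

/-- A non-abelian subgroup with the elementary data, normalizing no non-trivial subgroup of odd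
order, is a large extraspecial subgroup. -/
theorem ESD.isLarge [Finite G] {R : Subgroup G} {z : G} (hE : ESD R z)
    (hnonab : ∃ x ∈ R, ∃ y ∈ R, x * y ≠ y * x)
    (hodd : ∀ K : Subgroup G, Odd (Nat.card K) → R ≤ Subgroup.normalizer (K : Set G) → K = ⊥) :
    Cfsg.IsLargeExtraspecial R := by
  refine ⟨ESD.isExtraspecial hE hnonab, ?_, ?_, hodd⟩
  · ext c
    rw [ESD.mem_center_map_iff hE, Subgroup.mem_centralizer_iff]
    constructor
    · intro hc
      exact hE.cent c (fun q hq => (hc q hq).symm)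
    · rintro (h | h) q hq
      · rw [h]; simp
      · rw [h]; exact hE.zc q hq
  · intro c hc
    rw [Subgroup.mem_centralizer_iff] at hc
    have hcz : c * z = z * c := (hc z ((ESD.mem_center_map_iff hE z).mpr (Or.inr rfl))).symm
    apply mem_normalizer_of_conj (hE.norm c hcz)
    intro q hq
    have hcz' : c⁻¹ * z = z * c⁻¹ := by
      have := congrArg (fun u => c⁻¹ * u * c⁻¹) hcz
      simpa [mul_assoc] using this.symm
    have := hE.norm c⁻¹ hcz' q hq
    simpa using this

end Cfsg.Agent.Lib.Helper90.ESConv
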