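import Mathlib
import Cfsg.Prelude.Def_Solvable
import Cfsg.Prelude.Def_Transfer
import Cfsg.Agent.Lib.Helper90.Basic
import Cfsg.Agent.Lib.Helper90.Count
import Cfsg.Agent.Lib.Helper90.Conj
import Cfsg.Agent.Lib.Helper90.ESData

set_option autoImplicit false

namespace Cfsg.Agent.Lib.Helper90.ESPair

open Cfsg.Agent.Lib.Helper90.ESData Cfsg.Agent.Lib.Helper90.Conj

variable {G : Type*} [Group G]

/-- Two "extraspecial data" `(Q, z)` and `(Q', s)` with `s ∈ Q`, `z ∈ Q'`, `z ≠ s`, such that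
any element conjugating `z` to `s` conjugates `Q` to `Q'` and conversely.  This is the situation
of a large extraspecial subgroup `Q` and a conjugate `Q' = g Q g⁻¹` with `s = g z g⁻¹ ∈ Q`. -/
structure Pair (Q : Subgroup G) (z : G) (Q' : Subgroup G) (s : G) : Prop where
  e : ESD Q z
  e' : ESD Q' s
  sQ : s ∈ Q
  zQ' : z ∈ Q'
  ne : z ≠ s
  fwd : ∀ n : G, n * z * n⁻¹ = s → ∀ q ∈ Q, n * q * n⁻¹ ∈ Q'
  bwd : ∀ n : G, n * s * n⁻¹ = z → ∀ q ∈ Q', n * q * n⁻¹ ∈ Q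

theorem Pair.symm {Q Q' : Subgroup G} {z s : G} (h : Pair Q z Q' s) : Pair Q' s Q z :=
  ⟨h.e', h.e, h.zQ', h.sQ, h.ne.symm, h.bwd, h.fwd⟩

theorem Pair.of_conj {Q : Subgroup G} {z : G} (hE : ESD Q z) (hcard : 9 ≤ Nat.card Q) (g : G)
    (hsQ : g * z * g⁻¹ ∈ Q) (hsz : g * z * g⁻¹ ≠ z) :
    Pair Q z (Q.map (MulAut.conj g).toMonoidHom) (g * z * g⁻¹) := by
  refine ⟨hE, hE.conj g, hsQ, hE.mem_conj_of_conj_mem hcard g hsQ hsz, Ne.symm hsz, ?_, ?_⟩
  · intro n hn q hq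
    rw [Basic.mem_map_conj_iff]
    have hc : (g⁻¹ * n) * z = z * (g⁻¹ * n) := by
      have := congrArg (fun u => g⁻¹ * u * n) hn
      simpa [mul_assoc] using this
    have := hE.norm _ hc q hq
    have e : g⁻¹ * (n * q * n⁻¹) * g = g⁻¹ * n * q * (g⁻¹ * n)⁻¹ := by group
    rw [e]; exact this
  · intro n hn q hq
    rw [Basic.mem_map_conj_iff] at hq
    have hc : (n * g) * z = z * (n * g) := by
      have := congrArg (fun u => u * (n * g)) hn
      simpa [mul_assoc] using this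
    have := hE.norm _ hc _ hq
    have e : n * g * (g⁻¹ * q * g) * (n * g)⁻¹ = n * q * n⁻¹ := by group
    rw [e] at this; exact this

/-- The four-group generated by `z` and `s`. -/
def VV (z s : G) : Subgroup G := Subgroup.closure ({z, s} : Set G)

/-- The centralizer of the four-group. -/
def CV (z s : G) : Subgroup G := Subgroup.centralizer ((VV z s : Subgroup G) : Set G)

/-- The centralizer of the four-group in `Q`. -/
def PP (Q : Subgroup G) (z s : G) : Subgroup G := Q ⊓ CV z s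

/-- The product of the two centralizers. -/
def RR (Q Q' : Subgroup G) (z s : G) : Subgroup G := PP Q' z s ⊔ PP Q z s

theorem VV_comm (z s : G) : VV s z = VV z s := by
  unfold VV; rw [Set.pair_comm]

theorem CV_comm (z s : G) : CV s z = CV z s := by
  unfold CV; rw [VV_comm]

theorem PP_comm (Q : Subgroup G) (z s : G) : PP Q s z = PP Q z s := by
  unfold PP; rw [CV_comm]

theorem RR_comm (Q Q' : Subgroup G) (z s : G) : RR Q' Q s z = RR Q Q' z s := by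
  unfold RR; rw [PP_comm Q z s, PP_comm Q' z s, sup_comm]

theorem mem_CV {z s c : G} : c ∈ CV z s ↔ c * z = z * c ∧ c * s = s * c :=
  mem_centralizer_closure_pair

theorem mem_PP {Q : Subgroup G} {z s x : G} :
    x ∈ PP Q z s ↔ x ∈ Q ∧ x * z = z * x ∧ x * s = s * x := by
  unfold PP; rw [Subgroup.mem_inf, mem_CV]

section
variable {Q Q' : Subgroup G} {z s : G}

theorem Pair.sz (h : Pair Q z Q' s) : s * z = z * s := h.e.zc s h.sQ
theorem Pair.zz (h : Pair Q z Q' s) : z * z = 1 := h.e.zz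
theorem Pair.ss (h : Pair Q z Q' s) : s * s = 1 := h.e'.zz
theorem Pair.s1 (h : Pair Q z Q' s) : s ≠ 1 := h.e'.z1
theorem Pair.z1 (h : Pair Q z Q' s) : z ≠ 1 := h.e.z1

theorem Pair.exists_t (h : Pair Q z Q' s) : ∃ t ∈ Q, t * z = z * t ∧ t * s * t⁻¹ = z * s := by
  obtain ⟨t, ht, hts⟩ := h.e.exists_conj h.sQ h.s1 h.ne.symm
  exact ⟨t, ht, h.e.zc t ht, hts⟩

theorem Pair.mem_VV (h : Pair Q z Q' s) (x : G) :
    x ∈ VV z s ↔ x = 1 ∨ x = z ∨ x = s ∨ x = z * s :=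
  mem_closure_pair h.zz h.ss h.sz x

theorem Pair.z_mem_VV (h : Pair Q z Q' s) : z ∈ VV z s := (h.mem_VV z).mpr (Or.inr (Or.inl rfl))
theorem Pair.s_mem_VV (h : Pair Q z Q' s) : s ∈ VV z s :=
  (h.mem_VV s).mpr (Or.inr (Or.inr (Or.inl rfl)))

theorem Pair.VV_le (h : Pair Q z Q' s) : VV z s ≤ Q ⊓ Q' := by
  unfold VV
  rw [Subgroup.closure_le]
  intro v hv
  rcases hv with hv | hv
  · rw [hv]; exact ⟨h.e.zQ, h.zQ'⟩
  · rw [Set.mem_singleton_iff] at hv
    rw [hv]; exact ⟨h.sQ, h.e'.zQ⟩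

theorem Pair.conj_s (h : Pair Q z Q' s) {q : G} (hq : q ∈ Q) :
    q * s * q⁻¹ = s ∨ q * s * q⁻¹ = z * s := by
  rcases h.e.comm q hq s h.sQ with h1 | h1
  · left
    have := congrArg (fun u => u * s) h1
    simpa [mul_assoc] using this
  · right
    have := congrArg (fun u => u * s) h1
    simpa [mul_assoc] using this

theorem Pair.Q_le_normalizer (h : Pair Q z Q' s) :
    Q ≤ Subgroup.normalizer ((VV z s : Subgroup G) : Set G) := by
  apply le_normalizer_of_conj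
  intro q hq x hx
  rw [h.mem_VV] at hx ⊢
  have hqz : q * z * q⁻¹ = z := conj_eq (h.e.zc q hq)
  have hqs := h.conj_s hq
  rcases hx with hx | hx | hx | hx
  · left; rw [hx]; simp
  · right; left; rw [hx, hqz]
  · rcases hqs with h1 | h1
    · right; right; left; rw [hx, h1]
    · right; right; right; rw [hx, h1]
  · rw [hx, Conj.conj_mul, hqz]
    rcases hqs with h1 | h1
    · right; right; right; rw [h1]
    · right; right; left; rw [h1, ← mul_assoc, h.zz, one_mul]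

theorem Pair.Q'_le_normalizer (h : Pair Q z Q' s) :
    Q' ≤ Subgroup.normalizer ((VV z s : Subgroup G) : Set G) := by
  have := h.symm.Q_le_normalizer
  rwa [VV_comm] at this

theorem Pair.X_le_normalizer (h : Pair Q z Q' s) :
    Q ⊔ Q' ≤ Subgroup.normalizer ((VV z s : Subgroup G) : Set G) :=
  sup_le h.Q_le_normalizer h.Q'_le_normalizer

theorem Pair.PP_eq (h : Pair Q z Q' s) : PP Q z s = Q ⊓ Subgroup.centralizer ({s} : Set G) := by
  ext x
  rw [mem_PP, Subgroup.mem_inf, Subgroup.mem_centralizer_iff]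
  constructor
  · rintro ⟨h1, _, h3⟩
    refine ⟨h1, ?_⟩
    intro u hu
    rw [Set.mem_singleton_iff] at hu
    rw [hu]; exact h3.symm
  · rintro ⟨h1, h2⟩
    exact ⟨h1, h.e.zc x h1, (h2 s (Set.mem_singleton s)).symm⟩

theorem Pair.PP'_eq (h : Pair Q z Q' s) :
    PP Q' z s = Q' ⊓ Subgroup.centralizer ({z} : Set G) := by
  rw [← PP_comm]; exact h.symm.PP_eq

theorem Pair.RR_eq (h : Pair Q z Q' s) :
    RR Q Q' z s = (Q' ⊓ Subgroup.centralizer ({z} : Set G)) ⊔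
      (Q ⊓ Subgroup.centralizer ({s} : Set G)) := by
  unfold RR; rw [h.PP_eq, h.PP'_eq]

theorem Pair.comm_Q_CV (h : Pair Q z Q' s) {q c : G} (hq : q ∈ Q) (hc : c ∈ CV z s) :
    q * c * q⁻¹ * c⁻¹ ∈ PP Q z s := by
  have hc' := mem_CV.mp hc
  refine Subgroup.mem_inf.mpr ⟨?_, ?_⟩
  · have h1 := h.e.norm c hc'.1 q⁻¹ (Q.inv_mem hq)
    have h2 := Q.mul_mem hq h1
    have e : q * (c * q⁻¹ * c⁻¹) = q * c * q⁻¹ * c⁻¹ := by group
    rwa [e] at h2
  · exact Subgroup.mul_mem _ (conj_mem_centralizer (h.Q_le_normalizer hq) hc)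
      (Subgroup.inv_mem _ hc)

theorem Pair.comm_Q'_CV (h : Pair Q z Q' s) {q c : G} (hq : q ∈ Q') (hc : c ∈ CV z s) :
    q * c * q⁻¹ * c⁻¹ ∈ PP Q' z s := by
  have := h.symm.comm_Q_CV hq (by rw [CV_comm]; exact hc)
  rwa [PP_comm] at this

theorem Pair.PP_le_CV (Q : Subgroup G) (z s : G) : PP Q z s ≤ CV z s := inf_le_right

theorem Pair.comm_P_P' (h : Pair Q z Q' s) {p r : G} (hp : p ∈ PP Q z s) (hr : r ∈ PP Q' z s) :
    r * p * r⁻¹ * p⁻¹ ∈ Q ⊓ Q' := by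
  have h1 := h.comm_Q'_CV (Subgroup.mem_inf.mp hr).1 (Subgroup.mem_inf.mp hp).2
  have h2 := h.comm_Q_CV (Subgroup.mem_inf.mp hp).1 (Subgroup.mem_inf.mp hr).2
  refine Subgroup.mem_inf.mpr ⟨?_, (Subgroup.mem_inf.mp h1).1⟩
  have h3 := Q.inv_mem (Subgroup.mem_inf.mp h2).1
  have e : (p * r * p⁻¹ * r⁻¹)⁻¹ = r * p * r⁻¹ * p⁻¹ := by group
  rwa [e] at h3

theorem Pair.E_sq (h : Pair Q z Q' s) {x : G} (hx : x ∈ Q ⊓ Q') : x * x = 1 := by
  rcases h.e.sq x hx.1 with h1 | h1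
  · exact h1
  · rcases h.e'.sq x hx.2 with h2 | h2
    · exact h2
    · exact absurd (h1.symm.trans h2) h.ne

theorem Pair.E_comm (h : Pair Q z Q' s) {x y : G} (hx : x ∈ Q ⊓ Q') (hy : y ∈ Q ⊓ Q') :
    x * y = y * x := by
  have key : x * y * x⁻¹ * y⁻¹ = 1 := by
    rcases h.e.comm x hx.1 y hy.1 with h1 | h1
    · exact h1
    · rcases h.e'.comm x hx.2 y hy.2 with h2 | h2
      · exact h2
      · exact absurd (h1.symm.trans h2) h.ne
  have := congrArg (fun u => u * y * x) key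
  simpa [mul_assoc] using this

theorem Pair.E_le_PP (h : Pair Q z Q' s) : Q ⊓ Q' ≤ PP Q z s := by
  intro x hx
  exact mem_PP.mpr ⟨hx.1, h.e.zc x hx.1, h.e'.zc x hx.2⟩

theorem Pair.E_le_PP' (h : Pair Q z Q' s) : Q ⊓ Q' ≤ PP Q' z s := by
  intro x hx
  exact mem_PP.mpr ⟨hx.2, h.e.zc x hx.1, h.e'.zc x hx.2⟩

theorem Pair.PP_inf_PP' (h : Pair Q z Q' s) : PP Q' z s ⊓ PP Q z s = Q ⊓ Q' := by
  apply le_antisymm
  · intro x hx
    exact ⟨(Subgroup.mem_inf.mp (Subgroup.mem_inf.mp hx).2).1,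
      (Subgroup.mem_inf.mp (Subgroup.mem_inf.mp hx).1).1⟩
  · exact le_inf h.E_le_PP' h.E_le_PP

theorem Pair.Q_le_normalizer_E (h : Pair Q z Q' s) :
    Q ≤ Subgroup.normalizer ((Q ⊓ Q' : Subgroup G) : Set G) := by
  apply le_normalizer_of_conj
  intro q hq x hx
  refine Subgroup.mem_inf.mpr ⟨Q.mul_mem (Q.mul_mem hq hx.1) (Q.inv_mem hq), ?_⟩
  have e : q * x * q⁻¹ = (q * x * q⁻¹ * x⁻¹) * x := by group
  rw [e]
  rcases h.e.comm q hq x hx.1 with h1 | h1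
  · rw [h1, one_mul]; exact hx.2
  · rw [h1]; exact Q'.mul_mem h.zQ' hx.2

theorem Pair.Q'_le_normalizer_E (h : Pair Q z Q' s) :
    Q' ≤ Subgroup.normalizer ((Q ⊓ Q' : Subgroup G) : Set G) := by
  have := h.symm.Q_le_normalizer_E
  rwa [inf_comm] at this

theorem Pair.X_le_normalizer_E (h : Pair Q z Q' s) :
    Q ⊔ Q' ≤ Subgroup.normalizer ((Q ⊓ Q' : Subgroup G) : Set G) :=
  sup_le h.Q_le_normalizer_E h.Q'_le_normalizer_E

theorem Pair.Q_le_normalizer_RR (h : Pair Q z Q' s) :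
    Q ≤ Subgroup.normalizer ((RR Q Q' z s : Subgroup G) : Set G) := by
  apply le_normalizer_of_conj
  intro q hq x hx
  have hle : PP Q' z s ⊔ PP Q z s ≤
      Subgroup.comap (MulAut.conj q).toMonoidHom (RR Q Q' z s) := by
    apply sup_le
    · intro a ha
      rw [Subgroup.mem_comap]
      show q * a * q⁻¹ ∈ RR Q Q' z s
      have e : q * a * q⁻¹ = (q * a * q⁻¹ * a⁻¹) * a := by group
      rw [e]
      exact Subgroup.mul_mem _
        (Subgroup.mem_sup_right (h.comm_Q_CV hq (Subgroup.mem_inf.mp ha).2))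
        (Subgroup.mem_sup_left ha)
    · intro b hb
      rw [Subgroup.mem_comap]
      show q * b * q⁻¹ ∈ RR Q Q' z s
      apply Subgroup.mem_sup_right
      exact Subgroup.mem_inf.mpr ⟨Q.mul_mem (Q.mul_mem hq (Subgroup.mem_inf.mp hb).1) (Q.inv_mem hq),
        conj_mem_centralizer (h.Q_le_normalizer hq) (Subgroup.mem_inf.mp hb).2⟩
  have := hle hx
  rw [Subgroup.mem_comap] at this
  exact this

theorem Pair.Q'_le_normalizer_RR (h : Pair Q z Q' s) :
    Q' ≤ Subgroup.normalizer ((RR Q Q' z s : Subgroup G) : Set G) := by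
  have := h.symm.Q_le_normalizer_RR
  rwa [RR_comm] at this

theorem Pair.X_le_normalizer_RR (h : Pair Q z Q' s) :
    Q ⊔ Q' ≤ Subgroup.normalizer ((RR Q Q' z s : Subgroup G) : Set G) :=
  sup_le h.Q_le_normalizer_RR h.Q'_le_normalizer_RR

theorem RR_le_CV (Q Q' : Subgroup G) (z s : G) : RR Q Q' z s ≤ CV z s :=
  sup_le inf_le_right inf_le_right

theorem RR_le_X (Q Q' : Subgroup G) (z s : G) : RR Q Q' z s ≤ Q ⊔ Q' :=
  sup_le (inf_le_left.trans le_sup_right) (inf_le_left.trans le_sup_left)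

theorem X_eq_closure (Q Q' : Subgroup G) : Q ⊔ Q' = Subgroup.closure ((Q : Set G) ∪ (Q' : Set G)) := by
  rw [Subgroup.closure_union, Subgroup.closure_eq, Subgroup.closure_eq]

/-- `[X, C(V)] ≤ R`. -/
theorem Pair.comm_X_CV (h : Pair Q z Q' s) {x c : G} (hx : x ∈ Q ⊔ Q') (hc : c ∈ CV z s) :
    x * c * x⁻¹ * c⁻¹ ∈ RR Q Q' z s := by
  rw [X_eq_closure] at hx
  refine comm_mem_of_closure (T := (CV z s : Set G)) ?_ ?_ x hx c hc
  · intro x hx n hn
    rw [← X_eq_closure] at hx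
    exact conj_mem_of_mem_normalizer (h.X_le_normalizer_RR hx) hn
  · intro a ha c hc
    rcases ha with ha | ha
    · exact Subgroup.mem_sup_right (h.comm_Q_CV ha hc)
    · exact Subgroup.mem_sup_left (h.comm_Q'_CV ha hc)

/-- `[X, E] ≤ V`. -/
theorem Pair.comm_X_E (h : Pair Q z Q' s) {x c : G} (hx : x ∈ Q ⊔ Q') (hc : c ∈ Q ⊓ Q') :
    x * c * x⁻¹ * c⁻¹ ∈ VV z s := by
  rw [X_eq_closure] at hx
  refine comm_mem_of_closure (T := ((Q ⊓ Q' : Subgroup G) : Set G)) ?_ ?_ x hx c hc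
  · intro x hx n hn
    rw [← X_eq_closure] at hx
    exact conj_mem_of_mem_normalizer (h.X_le_normalizer hx) hn
  · intro a ha c hc
    rcases ha with ha | ha
    · rcases h.e.comm a ha c hc.1 with h1 | h1
      · rw [h1]; exact Subgroup.one_mem _
      · rw [h1]; exact h.z_mem_VV
    · rcases h.e'.comm a ha c hc.2 with h1 | h1
      · rw [h1]; exact Subgroup.one_mem _
      · rw [h1]; exact h.s_mem_VV

theorem RR_eq_closure (Q Q' : Subgroup G) (z s : G) :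
    RR Q Q' z s = Subgroup.closure ((PP Q' z s : Set G) ∪ (PP Q z s : Set G)) := by
  unfold RR; rw [Subgroup.closure_union, Subgroup.closure_eq, Subgroup.closure_eq]

theorem Pair.VV_le_RR (h : Pair Q z Q' s) : VV z s ≤ RR Q Q' z s :=
  h.VV_le.trans (h.E_le_PP.trans le_sup_right)

theorem Pair.E_le_RR (h : Pair Q z Q' s) : Q ⊓ Q' ≤ RR Q Q' z s :=
  h.E_le_PP.trans le_sup_right

/-- `R / E` is abelian. -/
theorem Pair.comm_RR (h : Pair Q z Q' s) {x y : G} (hx : x ∈ RR Q Q' z s)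
    (hy : y ∈ RR Q Q' z s) : x * y * x⁻¹ * y⁻¹ ∈ Q ⊓ Q' := by
  have hN : ∀ x ∈ Subgroup.closure ((PP Q' z s : Set G) ∪ (PP Q z s : Set G)),
      ∀ n ∈ Q ⊓ Q', x * n * x⁻¹ ∈ Q ⊓ Q' := by
    intro x hx n hn
    rw [← RR_eq_closure] at hx
    exact conj_mem_of_mem_normalizer (h.X_le_normalizer_E (RR_le_X Q Q' z s hx)) hn
  have step1 : ∀ x ∈ Subgroup.closure ((PP Q' z s : Set G) ∪ (PP Q z s : Set G)),
      ∀ c ∈ ((PP Q' z s : Set G) ∪ (PP Q z s : Set G)), x * c * x⁻¹ * c⁻¹ ∈ Q ⊓ Q' := by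
    apply comm_mem_of_closure hN
    intro a ha c hc
    rcases ha with ha | ha <;> rcases hc with hc | hc
    · rcases h.e'.comm a (mem_PP.mp ha).1 c (mem_PP.mp hc).1 with h1 | h1
      · rw [h1]; exact Subgroup.one_mem _
      · rw [h1]; exact ⟨h.sQ, h.e'.zQ⟩
    · exact h.comm_P_P' hc ha
    · have := Subgroup.inv_mem _ (h.comm_P_P' ha hc)
      have e : (c * a * c⁻¹ * a⁻¹)⁻¹ = a * c * a⁻¹ * c⁻¹ := by group
      rwa [e] at this
    · rcases h.e.comm a (mem_PP.mp ha).1 c (mem_PP.mp hc).1 with h1 | h1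
      · rw [h1]; exact Subgroup.one_mem _
      · rw [h1]; exact ⟨h.e.zQ, h.zQ'⟩
  have step2 : ∀ x ∈ Subgroup.closure ((PP Q' z s : Set G) ∪ (PP Q z s : Set G)),
      ∀ c ∈ (RR Q Q' z s : Set G), x * c * x⁻¹ * c⁻¹ ∈ Q ⊓ Q' := by
    apply comm_mem_of_closure hN
    intro a ha c hc
    have hc' : c ∈ Subgroup.closure ((PP Q' z s : Set G) ∪ (PP Q z s : Set G)) := by
      rw [← RR_eq_closure]; exact hc
    have := Subgroup.inv_mem _ (step1 c hc' a ha)
    have e : (c * a * c⁻¹ * a⁻¹)⁻¹ = a * c * a⁻¹ * c⁻¹ := by group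
    rwa [e] at this
  rw [RR_eq_closure] at hx
  exact step2 x hx y hy

/-- `R / E` has exponent two. -/
theorem Pair.sq_RR (h : Pair Q z Q' s) {x : G} (hx : x ∈ RR Q Q' z s) : x * x ∈ Q ⊓ Q' := by
  have key : ∀ x ∈ Subgroup.closure ((PP Q' z s : Set G) ∪ (PP Q z s : Set G)),
      x * x ∈ Q ⊓ Q' := by
    intro x hx
    induction hx using Subgroup.closure_induction with
    | mem a ha =>
      rcases ha with ha | ha
      · rcases h.e'.sq a (mem_PP.mp ha).1 with h1 | h1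
        · rw [h1]; exact Subgroup.one_mem _
        · rw [h1]; exact ⟨h.sQ, h.e'.zQ⟩
      · rcases h.e.sq a (mem_PP.mp ha).1 with h1 | h1
        · rw [h1]; exact Subgroup.one_mem _
        · rw [h1]; exact ⟨h.e.zQ, h.zQ'⟩
    | one => rw [one_mul]; exact Subgroup.one_mem _
    | mul x y hx hy ihx ihy =>
      rw [← RR_eq_closure] at hx hy
      have hc := h.comm_RR (Subgroup.inv_mem _ hx) hy
      have e : x * y * (x * y) = (x * x) * (x⁻¹ * y * x⁻¹⁻¹ * y⁻¹) * (y * y) := by group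
      rw [e]
      exact Subgroup.mul_mem _ (Subgroup.mul_mem _ ihx hc) ihy
    | inv x hx ih =>
      have e : x⁻¹ * x⁻¹ = (x * x)⁻¹ := by group
      rw [e]
      exact Subgroup.inv_mem _ ih
  rw [RR_eq_closure] at hx
  exact key x hx

theorem Pair.mem_RR (h : Pair Q z Q' s) {x : G} :
    x ∈ RR Q Q' z s ↔ ∃ a ∈ PP Q' z s, ∃ b ∈ PP Q z s, x = a * b := by
  unfold RR
  apply mem_sup_of_normalizes
  intro a ha b hb
  have ha' := mem_PP.mp ha
  have hb' := mem_PP.mp hb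
  refine Subgroup.mem_inf.mpr ⟨h.e'.norm b hb'.2.2 a ha'.1, ?_⟩
  exact Subgroup.mul_mem _ (Subgroup.mul_mem _ (Subgroup.mem_inf.mp hb).2
    (Subgroup.mem_inf.mp ha).2) (Subgroup.inv_mem _ (Subgroup.mem_inf.mp hb).2)

/-- The key step: an element of `Q'` whose commutator with `t` lies in `V` lies in `Q`. -/
theorem Pair.mem_E_of_comm_mem_VV (h : Pair Q z Q' s) {t a : G} (ht : t ∈ Q)
    (hts : t * s * t⁻¹ = z * s) (ha : a ∈ Q') (hv : t * a * t⁻¹ * a⁻¹ ∈ VV z s) :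
    a ∈ Q ⊓ Q' := by
  obtain ⟨y, hy, hys, hyz⟩ := h.symm.exists_t
  have h1 : t * a * t⁻¹ ∈ Q' := by
    have := Q'.mul_mem ((h.VV_le hv).2) ha
    have e : t * a * t⁻¹ * a⁻¹ * a = t * a * t⁻¹ := by group
    rwa [e] at this
  have h2 : (y⁻¹ * t) * s * (y⁻¹ * t)⁻¹ = z := by
    have e1 : y⁻¹ * z * y = s * z := inv_conj h.ss hys hyz
    have e2 : y⁻¹ * s * y = s := inv_conj_eq hys
    calc (y⁻¹ * t) * s * (y⁻¹ * t)⁻¹ = y⁻¹ * (t * s * t⁻¹) * y := by group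
      _ = y⁻¹ * (z * s) * y := by rw [hts]
      _ = (y⁻¹ * z * y) * (y⁻¹ * s * y) := by group
      _ = s * z * s := by rw [e1, e2]
      _ = z := by rw [h.sz, mul_assoc, h.ss, mul_one]
  have h3 : (y⁻¹ * t) * a * (y⁻¹ * t)⁻¹ ∈ Q := h.bwd _ h2 a ha
  have h4 : (y⁻¹ * t) * a * (y⁻¹ * t)⁻¹ ∈ Q' := by
    have := Q'.mul_mem (Q'.mul_mem (Q'.inv_mem hy) h1) hy
    have e : y⁻¹ * (t * a * t⁻¹) * y = (y⁻¹ * t) * a * (y⁻¹ * t)⁻¹ := by group
    rwa [e] at this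
  have h5 : t * a * t⁻¹ ∈ Q ⊓ Q' := by
    have := conj_mem_of_mem_normalizer (h.Q'_le_normalizer_E hy) (Subgroup.mem_inf.mpr ⟨h3, h4⟩)
    have e : y * ((y⁻¹ * t) * a * (y⁻¹ * t)⁻¹) * y⁻¹ = t * a * t⁻¹ := by group
    rwa [e] at this
  have := inv_conj_mem_of_mem_normalizer (h.Q_le_normalizer_E ht) h5
  have e : t⁻¹ * (t * a * t⁻¹) * t = a := by group
  rwa [e] at this

theorem Pair.mem_VV_of_central_of_mem_Q (h : Pair Q z Q' s) {x : G} (hxQ : x ∈ Q)
    (hc : x ∈ Subgroup.centralizer (RR Q Q' z s : Set G)) : x ∈ VV z s := by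
  rw [Subgroup.mem_centralizer_iff] at hc
  rw [h.mem_VV]
  apply h.e.double_centralizer h.sQ hxQ
  intro p hp hps
  have : p ∈ RR Q Q' z s := Subgroup.mem_sup_right (mem_PP.mpr ⟨hp, h.e.zc p hp, hps⟩)
  exact (hc p this).symm

/-- The centre of `R` is `V`. -/
theorem Pair.central_RR (h : Pair Q z Q' s) {x : G} (hx : x ∈ RR Q Q' z s)
    (hc : x ∈ Subgroup.centralizer (RR Q Q' z s : Set G)) : x ∈ VV z s := by
  obtain ⟨t, ht, htz, hts⟩ := h.exists_t
  obtain ⟨a, ha, b, hb, rfl⟩ := h.mem_RR.mp hx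
  have ha' := mem_PP.mp ha
  have hb' := mem_PP.mp hb
  have htN : t ∈ Subgroup.normalizer (RR Q Q' z s : Set G) := h.Q_le_normalizer_RR ht
  have h1 : t * (a * b) * t⁻¹ ∈ Subgroup.centralizer (RR Q Q' z s : Set G) :=
    conj_mem_centralizer htN hc
  have hzc : z ∈ Subgroup.centralizer (RR Q Q' z s : Set G) := by
    rw [Subgroup.mem_centralizer_iff]
    intro r hr
    exact (mem_CV.mp (RR_le_CV Q Q' z s hr)).1
  have h2 : t * b * t⁻¹ * b⁻¹ ∈ Subgroup.centralizer (RR Q Q' z s : Set G) := by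
    rcases h.e.comm t ht b hb'.1 with h3 | h3
    · rw [h3]; exact Subgroup.one_mem _
    · rw [h3]; exact hzc
  have h3 : t * a * t⁻¹ * a⁻¹ ∈ Subgroup.centralizer (RR Q Q' z s : Set G) := by
    have h4 : a * (t * b * t⁻¹ * b⁻¹) * a⁻¹ = t * b * t⁻¹ * b⁻¹ := by
      have := (Subgroup.mem_centralizer_iff.mp h2) a (Subgroup.mem_sup_left ha)
      rw [this]; group
    have e : t * a * t⁻¹ * a⁻¹ =
        (t * (a * b) * t⁻¹) * (a * b)⁻¹ * (a * (t * b * t⁻¹ * b⁻¹) * a⁻¹)⁻¹ := by group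
    rw [e, h4]
    exact Subgroup.mul_mem _ (Subgroup.mul_mem _ h1 (Subgroup.inv_mem _ hc))
      (Subgroup.inv_mem _ h2)
  have h5 : t * a * t⁻¹ * a⁻¹ ∈ PP Q z s := h.comm_Q_CV ht (Subgroup.mem_inf.mp ha).2
  have h6 : t * a * t⁻¹ * a⁻¹ ∈ VV z s :=
    h.mem_VV_of_central_of_mem_Q (Subgroup.mem_inf.mp h5).1 h3
  have h7 : a ∈ Q ⊓ Q' := h.mem_E_of_comm_mem_VV ht hts ha'.1 h6
  exact h.mem_VV_of_central_of_mem_Q (Q.mul_mem h7.1 hb'.1) hc

theorem Pair.center_RR (h : Pair Q z Q' s) :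
    (Subgroup.center ↥(RR Q Q' z s)).map (RR Q Q' z s).subtype = VV z s := by
  ext x
  constructor
  · rintro ⟨c, hc, rfl⟩
    apply h.central_RR c.2
    rw [Subgroup.mem_centralizer_iff]
    intro r hr
    have := Subgroup.mem_center_iff.mp hc ⟨r, hr⟩
    exact congrArg Subtype.val this
  · intro hx
    have hxR : x ∈ RR Q Q' z s := h.VV_le_RR hx
    refine ⟨⟨x, hxR⟩, ?_, rfl⟩
    rw [SetLike.mem_coe, Subgroup.mem_center_iff]
    intro r
    ext
    have := Subgroup.mem_centralizer_iff.mp (RR_le_CV Q Q' z s r.2) x hx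
    simpa using this.symm

theorem Pair.mem_center_RR_iff (h : Pair Q z Q' s) (c : ↥(RR Q Q' z s)) :
    c ∈ Subgroup.center ↥(RR Q Q' z s) ↔ (c : G) ∈ VV z s := by
  rw [← h.center_RR]
  constructor
  · intro hc
    exact ⟨c, hc, rfl⟩
  · rintro ⟨c', hc', hcc⟩
    have : c' = c := Subtype.ext hcc
    rwa [← this]

/-- `E` lies in the second centre of `R`. -/
theorem Pair.mem_Z2_of_mem_E (h : Pair Q z Q' s) (c : ↥(RR Q Q' z s)) (hc : (c : G) ∈ Q ⊓ Q') :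
    c ∈ Subgroup.upperCentralSeries ↥(RR Q Q' z s) 2 := by
  rw [Subgroup.mem_upperCentralSeries_succ_iff]
  intro y
  rw [Subgroup.upperCentralSeries_one, h.mem_center_RR_iff, commutatorElement_def]
  have h1 := h.comm_X_E (RR_le_X Q Q' z s y.2) hc
  have h2 := Subgroup.inv_mem _ h1
  have e : ((y : G) * c * (y : G)⁻¹ * (c : G)⁻¹)⁻¹ = (c : G) * y * (c : G)⁻¹ * (y : G)⁻¹ := by group
  rw [e] at h2
  simpa using h2

/-- `R` has class at most three. -/
theorem Pair.Z3_RR (h : Pair Q z Q' s) : Subgroup.upperCentralSeries ↥(RR Q Q' z s) 3 = ⊤ := by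
  rw [eq_top_iff]
  intro x _
  rw [Subgroup.mem_upperCentralSeries_succ_iff]
  intro y
  apply h.mem_Z2_of_mem_E
  rw [commutatorElement_def]
  have := h.comm_RR x.2 y.2
  simpa using this

end

end Cfsg.Agent.Lib.Helper90.ESPair
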