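import Mathlib
import Cfsg.Prelude.Def_Solvable
import Cfsg.Prelude.Def_Transfer
import Cfsg.Agent.Lib.Helper90.Basic
import Cfsg.Agent.Lib.Helper90.Count
import Cfsg.Agent.Lib.Helper90.Conj
import Cfsg.Agent.Lib.Helper90.ESData
import Cfsg.Agent.Lib.Helper90.ESPair

set_option autoImplicit false

namespace Cfsg.Agent.Lib.Helper90.ESPair2

open Cfsg.Agent.Lib.Helper90.ESData Cfsg.Agent.Lib.Helper90.Conj Cfsg.Agent.Lib.Helper90.ESPair

variable {G : Type*} [Group G]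

/-- A pair together with elements `t ∈ Q`, `y ∈ Q'` inducing the two transvections on the
four-group `V = ⟨z, s⟩`. -/
structure TY (Q : Subgroup G) (z : G) (Q' : Subgroup G) (s : G) (t y : G) : Prop where
  p : Pair Q z Q' s
  tQ : t ∈ Q
  ts : t * s * t⁻¹ = z * s
  yQ' : y ∈ Q'
  yz : y * z * y⁻¹ = s * z

theorem exists_TY {Q Q' : Subgroup G} {z s : G} (h : Pair Q z Q' s) :
    ∃ t y, TY Q z Q' s t y := by
  obtain ⟨t, ht, -, hts⟩ := h.exists_t
  obtain ⟨y, hy, -, hyz⟩ := h.symm.exists_t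
  exact ⟨t, y, h, ht, hts, hy, hyz⟩

theorem TY.symm {Q Q' : Subgroup G} {z s t y : G} (h : TY Q z Q' s t y) : TY Q' s Q z y t :=
  ⟨h.p.symm, h.yQ', h.yz, h.tQ, h.ts⟩

section
variable {Q Q' : Subgroup G} {z s t y : G}

theorem TY.tz (h : TY Q z Q' s t y) : t * z = z * t := h.p.e.zc t h.tQ
theorem TY.ys (h : TY Q z Q' s t y) : y * s = s * y := h.p.e'.zc y h.yQ'
theorem TY.ct_z (h : TY Q z Q' s t y) : t * z * t⁻¹ = z := conj_eq h.tz
theorem TY.cy_s (h : TY Q z Q' s t y) : y * s * y⁻¹ = s := conj_eq h.ys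
theorem TY.yz' (h : TY Q z Q' s t y) : y * z * y⁻¹ = z * s := by rw [h.yz, h.p.sz]
theorem TY.cti_z (h : TY Q z Q' s t y) : t⁻¹ * z * t = z := inv_conj_eq h.tz
theorem TY.cti_s (h : TY Q z Q' s t y) : t⁻¹ * s * t = z * s := inv_conj h.p.zz h.tz h.ts
theorem TY.cyi_s (h : TY Q z Q' s t y) : y⁻¹ * s * y = s := inv_conj_eq h.ys
theorem TY.cyi_z (h : TY Q z Q' s t y) : y⁻¹ * z * y = s * z := inv_conj h.p.ss h.ys h.yz

theorem TY.e1 (h : TY Q z Q' s t y) : z * (z * s) = s := by rw [← mul_assoc, h.p.zz, one_mul]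
theorem TY.e2 (h : TY Q z Q' s t y) : z * s * s = z := by rw [mul_assoc, h.p.ss, mul_one]
theorem TY.e3 (h : TY Q z Q' s t y) : s * (z * s) = z := by
  rw [← mul_assoc, h.p.sz, mul_assoc, h.p.ss, mul_one]

theorem TY.ty_z (h : TY Q z Q' s t y) : (t * y) * z * (t * y)⁻¹ = s := by
  rw [conj_conj, h.yz', Conj.conj_mul, h.ct_z, h.ts, h.e1]

theorem TY.ty_s (h : TY Q z Q' s t y) : (t * y) * s * (t * y)⁻¹ = z * s := by
  rw [conj_conj, h.cy_s, h.ts]

theorem TY.yt_z (h : TY Q z Q' s t y) : (y * t) * z * (y * t)⁻¹ = z * s := by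
  rw [conj_conj, h.ct_z, h.yz']

theorem TY.yt_s (h : TY Q z Q' s t y) : (y * t) * s * (y * t)⁻¹ = z := by
  rw [conj_conj, h.ts, Conj.conj_mul, h.yz', h.cy_s, h.e2]

theorem TY.tyt_z (h : TY Q z Q' s t y) : (t * y * t) * z * (t * y * t)⁻¹ = s := by
  rw [conj_conj, h.ct_z, h.ty_z]

theorem TY.tyt_s (h : TY Q z Q' s t y) : (t * y * t) * s * (t * y * t)⁻¹ = z := by
  rw [conj_conj, h.ts, Conj.conj_mul, h.ty_z, h.ty_s, h.e3]

theorem TY.tX (h : TY Q z Q' s t y) : t ∈ Q ⊔ Q' := Subgroup.mem_sup_left h.tQ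
theorem TY.yX (h : TY Q z Q' s t y) : y ∈ Q ⊔ Q' := Subgroup.mem_sup_right h.yQ'

theorem TY.zs_ne_s (h : TY Q z Q' s t y) : z * s ≠ s := by
  intro h1
  apply h.p.z1
  have := congrArg (fun u => u * s⁻¹) h1
  simpa using this

theorem TY.zs_ne_z (h : TY Q z Q' s t y) : z * s ≠ z := by
  intro h1
  apply h.p.s1
  have := congrArg (fun u => z⁻¹ * u) h1
  simpa using this

/-- Elements of `Q` lie in `R` or in `t R`. -/
theorem TY.mem_RR_or (h : TY Q z Q' s t y) {a : G} (ha : a ∈ Q) :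
    a ∈ RR Q Q' z s ∨ t⁻¹ * a ∈ RR Q Q' z s := by
  rcases h.p.conj_s ha with h1 | h1
  · left
    apply Subgroup.mem_sup_right
    refine mem_PP.mpr ⟨ha, h.p.e.zc a ha, ?_⟩
    have := congrArg (fun u => u * a) h1
    simpa [mul_assoc] using this
  · right
    apply Subgroup.mem_sup_right
    have hQ : t⁻¹ * a ∈ Q := Q.mul_mem (Q.inv_mem h.tQ) ha
    refine mem_PP.mpr ⟨hQ, h.p.e.zc _ hQ, ?_⟩
    calc t⁻¹ * a * s = t⁻¹ * (a * s * a⁻¹) * a := by group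
      _ = t⁻¹ * (z * s) * a := by rw [h1]
      _ = (t⁻¹ * z * t) * (t⁻¹ * s * t) * (t⁻¹ * a) := by group
      _ = z * (z * s) * (t⁻¹ * a) := by rw [h.cti_z, h.cti_s]
      _ = s * (t⁻¹ * a) := by rw [h.e1]

theorem TY.mem_RR_or' (h : TY Q z Q' s t y) {a : G} (ha : a ∈ Q') :
    a ∈ RR Q Q' z s ∨ y⁻¹ * a ∈ RR Q Q' z s := by
  have := h.symm.mem_RR_or ha
  rwa [RR_comm] at this

theorem TY.tt_mem (h : TY Q z Q' s t y) : t * t ∈ RR Q Q' z s := by
  rcases h.p.e.sq t h.tQ with h1 | h1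
  · rw [h1]; exact Subgroup.one_mem _
  · rw [h1]; exact h.p.VV_le_RR h.p.z_mem_VV

theorem TY.yy_mem (h : TY Q z Q' s t y) : y * y ∈ RR Q Q' z s := by
  have := h.symm.tt_mem
  rwa [RR_comm] at this

theorem TY.conj_mem_RR (h : TY Q z Q' s t y) {x r : G} (hx : x ∈ Q ⊔ Q')
    (hr : r ∈ RR Q Q' z s) : x * r * x⁻¹ ∈ RR Q Q' z s :=
  conj_mem_of_mem_normalizer (h.p.X_le_normalizer_RR hx) hr

theorem TY.inv_conj_mem_RR (h : TY Q z Q' s t y) {x r : G} (hx : x ∈ Q ⊔ Q')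
    (hr : r ∈ RR Q Q' z s) : x⁻¹ * r * x ∈ RR Q Q' z s :=
  inv_conj_mem_of_mem_normalizer (h.p.X_le_normalizer_RR hx) hr

/-- The key relation: `(y t y⁻¹) (t y t⁻¹)⁻¹ ∈ R`. -/
theorem TY.key_mem (h : TY Q z Q' s t y) : y * t * y⁻¹ * t * y⁻¹ * t⁻¹ ∈ RR Q Q' z s := by
  have hu : (y⁻¹ * t) * s * (y⁻¹ * t)⁻¹ = z := by
    calc (y⁻¹ * t) * s * (y⁻¹ * t)⁻¹ = y⁻¹ * (t * s * t⁻¹) * y := by group
      _ = y⁻¹ * (z * s) * y := by rw [h.ts]
      _ = (y⁻¹ * z * y) * (y⁻¹ * s * y) := by group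
      _ = s * z * s := by rw [h.cyi_z, h.cyi_s]
      _ = z := by rw [h.p.sz, mul_assoc, h.p.ss, mul_one]
  have hq1 : (y⁻¹ * t) * y⁻¹ * (y⁻¹ * t)⁻¹ ∈ Q := h.p.bwd _ hu y⁻¹ (Q'.inv_mem h.yQ')
  have huN : (y⁻¹ * t)⁻¹ ∈ Subgroup.normalizer ((VV z s : Subgroup G) : Set G) :=
    Subgroup.inv_mem _ (h.p.X_le_normalizer
      (Subgroup.mul_mem _ (Subgroup.inv_mem _ h.yX) h.tX))
  have hq1s : (y⁻¹ * t) * y⁻¹ * (y⁻¹ * t)⁻¹ * s * ((y⁻¹ * t) * y⁻¹ * (y⁻¹ * t)⁻¹)⁻¹ = z * s := by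
    rcases h.p.conj_s hq1 with h1 | h1
    · exfalso
      have hcv : (y⁻¹ * t) * y⁻¹ * (y⁻¹ * t)⁻¹ ∈ CV z s := by
        refine mem_CV.mpr ⟨h.p.e.zc _ hq1, ?_⟩
        have := congrArg (fun u => u * ((y⁻¹ * t) * y⁻¹ * (y⁻¹ * t)⁻¹)) h1
        simpa [mul_assoc] using this
      have h2 := conj_mem_centralizer huN hcv
      have e : (y⁻¹ * t)⁻¹ * ((y⁻¹ * t) * y⁻¹ * (y⁻¹ * t)⁻¹) * (y⁻¹ * t)⁻¹⁻¹ = y⁻¹ := by group
      rw [e] at h2
      have h2' : y⁻¹ ∈ CV z s := h2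
      have h3 : y ∈ CV z s := by
        have := (CV z s).inv_mem h2'
        rwa [inv_inv] at this
      have h4 := (mem_CV.mp h3).1
      have h5 : y * z * y⁻¹ = z := conj_eq h4
      rw [h.yz'] at h5
      exact h.zs_ne_z h5
    · exact h1
  have hc0 : t * ((y⁻¹ * t) * y⁻¹ * (y⁻¹ * t)⁻¹) ∈ PP Q z s := by
    have hQ : t * ((y⁻¹ * t) * y⁻¹ * (y⁻¹ * t)⁻¹) ∈ Q := Q.mul_mem h.tQ hq1
    refine mem_PP.mpr ⟨hQ, h.p.e.zc _ hQ, ?_⟩
    generalize (y⁻¹ * t) * y⁻¹ * (y⁻¹ * t)⁻¹ = q at hq1s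
    calc t * q * s = t * (q * s * q⁻¹) * q := by group
      _ = t * (z * s) * q := by rw [hq1s]
      _ = (t * z * t⁻¹) * (t * s * t⁻¹) * (t * q) := by group
      _ = z * (z * s) * (t * q) := by rw [h.ct_z, h.ts]
      _ = s * (t * q) := by rw [h.e1]
  have := h.conj_mem_RR h.yX (Subgroup.mem_sup_right hc0)
  have e : y * (t * ((y⁻¹ * t) * y⁻¹ * (y⁻¹ * t)⁻¹)) * y⁻¹ = y * t * y⁻¹ * t * y⁻¹ * t⁻¹ := by
    group
  rwa [e] at this

/-- The braid relation modulo `R`. -/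
theorem TY.braid_mem (h : TY Q z Q' s t y) : (t * y * t)⁻¹ * (y * t * y) ∈ RR Q Q' z s := by
  have hx : t * y * t⁻¹ ∈ Q ⊔ Q' :=
    Subgroup.mul_mem _ (Subgroup.mul_mem _ h.tX h.yX) (Subgroup.inv_mem _ h.tX)
  have h1 := h.inv_conj_mem_RR hx h.key_mem
  have h2 := Subgroup.mul_mem _ (Subgroup.mul_mem _ (Subgroup.inv_mem _ h.tt_mem) h1) h.yy_mem
  have e : (t * t)⁻¹ * ((t * y * t⁻¹)⁻¹ * (y * t * y⁻¹ * t * y⁻¹ * t⁻¹) * (t * y * t⁻¹)) * (y * y) =
      (t * y * t)⁻¹ * (y * t * y) := by group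
  rwa [e] at h2

theorem TY.braid_mem' (h : TY Q z Q' s t y) : (t * y)⁻¹ * (y * (t * y * t)) ∈ RR Q Q' z s := by
  have h1 := h.conj_mem_RR h.tX h.braid_mem
  have h2 := Subgroup.mul_mem _ h1 h.tt_mem
  have e : t * ((t * y * t)⁻¹ * (y * t * y)) * t⁻¹ * (t * t) = (t * y)⁻¹ * (y * (t * y * t)) := by
    group
  rwa [e] at h2

/-- The six coset representatives. -/
def InD (t y d : G) : Prop :=
  d = 1 ∨ d = t ∨ d = y ∨ d = t * y ∨ d = y * t ∨ d = t * y * t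

theorem TY.InD_mem_X (h : TY Q z Q' s t y) {d : G} (hd : InD t y d) : d ∈ Q ⊔ Q' := by
  rcases hd with hd | hd | hd | hd | hd | hd <;> rw [hd]
  · exact Subgroup.one_mem _
  · exact h.tX
  · exact h.yX
  · exact Subgroup.mul_mem _ h.tX h.yX
  · exact Subgroup.mul_mem _ h.yX h.tX
  · exact Subgroup.mul_mem _ (Subgroup.mul_mem _ h.tX h.yX) h.tX

theorem TY.t_mul_InD (h : TY Q z Q' s t y) {d : G} (hd : InD t y d) :
    ∃ d', InD t y d' ∧ d'⁻¹ * (t * d) ∈ RR Q Q' z s := by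
  rcases hd with hd | hd | hd | hd | hd | hd <;> rw [hd]
  · exact ⟨t, Or.inr (Or.inl rfl), by simp⟩
  · exact ⟨1, Or.inl rfl, by simpa using h.tt_mem⟩
  · exact ⟨t * y, Or.inr (Or.inr (Or.inr (Or.inl rfl))), by simp⟩
  · refine ⟨y, Or.inr (Or.inr (Or.inl rfl)), ?_⟩
    have := h.inv_conj_mem_RR h.yX h.tt_mem
    have e : y⁻¹ * (t * t) * y = y⁻¹ * (t * (t * y)) := by group
    rwa [e] at this
  · exact ⟨t * y * t, Or.inr (Or.inr (Or.inr (Or.inr (Or.inr rfl)))), by simp [mul_assoc]⟩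
  · refine ⟨y * t, Or.inr (Or.inr (Or.inr (Or.inr (Or.inl rfl)))), ?_⟩
    have := h.inv_conj_mem_RR (Subgroup.mul_mem _ h.yX h.tX) h.tt_mem
    have e : (y * t)⁻¹ * (t * t) * (y * t) = (y * t)⁻¹ * (t * (t * y * t)) := by group
    rwa [e] at this

theorem TY.y_mul_InD (h : TY Q z Q' s t y) {d : G} (hd : InD t y d) :
    ∃ d', InD t y d' ∧ d'⁻¹ * (y * d) ∈ RR Q Q' z s := by
  rcases hd with hd | hd | hd | hd | hd | hd <;> rw [hd]
  · exact ⟨y, Or.inr (Or.inr (Or.inl rfl)), by simp⟩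
  · exact ⟨y * t, Or.inr (Or.inr (Or.inr (Or.inr (Or.inl rfl)))), by simp⟩
  · exact ⟨1, Or.inl rfl, by simpa using h.yy_mem⟩
  · refine ⟨t * y * t, Or.inr (Or.inr (Or.inr (Or.inr (Or.inr rfl)))), ?_⟩
    have := h.braid_mem
    have e : (t * y * t)⁻¹ * (y * t * y) = (t * y * t)⁻¹ * (y * (t * y)) := by group
    rwa [e] at this
  · refine ⟨t, Or.inr (Or.inl rfl), ?_⟩
    have := h.inv_conj_mem_RR h.tX h.yy_mem
    have e : t⁻¹ * (y * y) * t = t⁻¹ * (y * (y * t)) := by group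
    rwa [e] at this
  · exact ⟨t * y, Or.inr (Or.inr (Or.inr (Or.inl rfl))), h.braid_mem'⟩

/-- Every element of `X = ⟨Q, Q'⟩` lies in one of six cosets of `R`. -/
theorem TY.exists_rep (h : TY Q z Q' s t y) {x : G} (hx : x ∈ Q ⊔ Q') :
    ∃ d, InD t y d ∧ d⁻¹ * x ∈ RR Q Q' z s := by
  have step : ∀ a ∈ (Q : Set G) ∪ (Q' : Set G), ∀ x : G,
      (∃ d, InD t y d ∧ d⁻¹ * x ∈ RR Q Q' z s) → ∃ d, InD t y d ∧ d⁻¹ * (a * x) ∈ RR Q Q' z s := by
    rintro a ha x ⟨d, hd, hdx⟩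
    have hdX := h.InD_mem_X hd
    rcases ha with ha | ha
    · rcases h.mem_RR_or ha with h1 | h1
      · refine ⟨d, hd, ?_⟩
        have e : d⁻¹ * (a * x) = (d⁻¹ * a * d) * (d⁻¹ * x) := by group
        rw [e]
        exact Subgroup.mul_mem _ (h.inv_conj_mem_RR hdX h1) hdx
      · obtain ⟨d', hd', hd'd⟩ := h.t_mul_InD hd
        refine ⟨d', hd', ?_⟩
        have e : d'⁻¹ * (a * x) = (d'⁻¹ * (t * d)) * (d⁻¹ * (t⁻¹ * a) * d) * (d⁻¹ * x) := by group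
        rw [e]
        exact Subgroup.mul_mem _ (Subgroup.mul_mem _ hd'd (h.inv_conj_mem_RR hdX h1)) hdx
    · rcases h.mem_RR_or' ha with h1 | h1
      · refine ⟨d, hd, ?_⟩
        have e : d⁻¹ * (a * x) = (d⁻¹ * a * d) * (d⁻¹ * x) := by group
        rw [e]
        exact Subgroup.mul_mem _ (h.inv_conj_mem_RR hdX h1) hdx
      · obtain ⟨d', hd', hd'd⟩ := h.y_mul_InD hd
        refine ⟨d', hd', ?_⟩
        have e : d'⁻¹ * (a * x) = (d'⁻¹ * (y * d)) * (d⁻¹ * (y⁻¹ * a) * d) * (d⁻¹ * x) := by group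
        rw [e]
        exact Subgroup.mul_mem _ (Subgroup.mul_mem _ hd'd (h.inv_conj_mem_RR hdX h1)) hdx
  rw [X_eq_closure] at hx
  induction hx using Subgroup.closure_induction_left with
  | one => exact ⟨1, Or.inl rfl, by simp⟩
  | mul_left a ha x hx ih => exact step a ha x ih
  | inv_mul_cancel a ha x hx ih =>
    refine step a⁻¹ ?_ x ih
    rcases ha with ha | ha
    · exact Or.inl (Q.inv_mem ha)
    · exact Or.inr (Q'.inv_mem ha)

/-- Among the six representatives only the identity centralizes `V`. -/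
theorem TY.InD_CV (h : TY Q z Q' s t y) {d : G} (hd : InD t y d) (hc : d ∈ CV z s) : d = 1 := by
  have hc' := mem_CV.mp hc
  have hdz : d * z * d⁻¹ = z := conj_eq hc'.1
  have hds : d * s * d⁻¹ = s := conj_eq hc'.2
  rcases hd with hd | hd | hd | hd | hd | hd
  · exact hd
  · exfalso; rw [hd, h.ts] at hds; exact h.zs_ne_s hds
  · exfalso; rw [hd, h.yz'] at hdz; exact h.zs_ne_z hdz
  · exfalso; rw [hd, h.ty_z] at hdz; exact h.p.ne hdz.symm
  · exfalso; rw [hd, h.yt_z] at hdz; exact h.zs_ne_z hdz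
  · exfalso; rw [hd, h.tyt_z] at hdz; exact h.p.ne hdz.symm

/-- `C_X(V) = R`. -/
theorem TY.X_inf_CV (h : TY Q z Q' s t y) : (Q ⊔ Q') ⊓ CV z s = RR Q Q' z s := by
  apply le_antisymm
  · rintro x ⟨hxX, hxC⟩
    obtain ⟨d, hd, hdx⟩ := h.exists_rep hxX
    have hdC : d ∈ CV z s := by
      have := Subgroup.mul_mem _ hxC (Subgroup.inv_mem _ (RR_le_CV Q Q' z s hdx))
      have e : x * (d⁻¹ * x)⁻¹ = d := by group
      rwa [e] at this
    have hd1 := h.InD_CV hd hdC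
    rw [hd1] at hdx
    simpa using hdx
  · exact le_inf (RR_le_X Q Q' z s) (RR_le_CV Q Q' z s)

end

/-- The non-identity elements of the four-group. -/
def Om (z s : G) : Type _ := {v : G // v ∈ VV z s ∧ v ≠ 1}

instance actOm (z s : G) :
    MulAction ↥(Subgroup.normalizer ((VV z s : Subgroup G) : Set G)) (Om z s) where
  smul n v := ⟨(n : G) * v.1 * (n : G)⁻¹, conj_mem_of_mem_normalizer n.2 v.2.1, by
    intro h
    apply v.2.2
    have := congrArg (fun u => (n : G)⁻¹ * u * n) h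
    simpa [mul_assoc] using this⟩
  one_smul v := by
    apply Subtype.ext
    show ((1 : ↥(Subgroup.normalizer ((VV z s : Subgroup G) : Set G))) : G) * v.1 *
      ((1 : ↥(Subgroup.normalizer ((VV z s : Subgroup G) : Set G))) : G)⁻¹ = v.1
    simp
  mul_smul m n v := by
    apply Subtype.ext
    show ((m * n : ↥(Subgroup.normalizer ((VV z s : Subgroup G) : Set G))) : G) * v.1 *
      ((m * n : ↥(Subgroup.normalizer ((VV z s : Subgroup G) : Set G))) : G)⁻¹ =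
      (m : G) * ((n : G) * v.1 * (n : G)⁻¹) * (m : G)⁻¹
    simp [mul_assoc]

/-- The action of the normalizer of the four-group on its non-identity elements. -/
def rho (z s : G) :
    ↥(Subgroup.normalizer ((VV z s : Subgroup G) : Set G)) →* Equiv.Perm (Om z s) :=
  MulAction.toPermHom _ _

theorem rho_apply_val (z s : G) (n : ↥(Subgroup.normalizer ((VV z s : Subgroup G) : Set G)))
    (v : Om z s) : (rho z s n v).1 = (n : G) * v.1 * (n : G)⁻¹ := rfl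

section
variable {Q Q' : Subgroup G} {z s t y : G}

theorem rho_eq_one_iff (h : Pair Q z Q' s)
    (n : ↥(Subgroup.normalizer ((VV z s : Subgroup G) : Set G))) :
    rho z s n = 1 ↔ (n : G) ∈ CV z s := by
  constructor
  · intro hn
    rw [mem_CV]
    have h1 : (n : G) * z * (n : G)⁻¹ = z :=
      congrArg (fun σ : Equiv.Perm (Om z s) => (σ ⟨z, h.z_mem_VV, h.z1⟩).1) hn
    have h2 : (n : G) * s * (n : G)⁻¹ = s :=
      congrArg (fun σ : Equiv.Perm (Om z s) => (σ ⟨s, h.s_mem_VV, h.s1⟩).1) hn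
    constructor
    · have := congrArg (fun u => u * (n : G)) h1
      simpa [mul_assoc] using this
    · have := congrArg (fun u => u * (n : G)) h2
      simpa [mul_assoc] using this
  · intro hn
    apply Equiv.ext
    intro v
    apply Subtype.ext
    rw [rho_apply_val]
    have := Subgroup.mem_centralizer_iff.mp hn v.1 v.2.1
    rw [← this]
    simp

/-- The action of `X = ⟨Q, Q'⟩`. -/
def rhoX (h : Pair Q z Q' s) : ↥(Q ⊔ Q') →* Equiv.Perm (Om z s) :=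
  (rho z s).comp (Subgroup.inclusion h.X_le_normalizer)

theorem rhoX_apply_val (h : Pair Q z Q' s) (x : ↥(Q ⊔ Q')) (v : Om z s) :
    (rhoX h x v).1 = (x : G) * v.1 * (x : G)⁻¹ := rfl

theorem rhoX_eq_one_iff (h : Pair Q z Q' s) (x : ↥(Q ⊔ Q')) :
    rhoX h x = 1 ↔ (x : G) ∈ CV z s := by
  unfold rhoX
  rw [MonoidHom.comp_apply, rho_eq_one_iff h]
  rfl

theorem normal_RR (h : Pair Q z Q' s) : ((RR Q Q' z s).subgroupOf (Q ⊔ Q')).Normal :=
  (Subgroup.normal_subgroupOf_iff_le_normalizer (RR_le_X Q Q' z s)).mpr h.X_le_normalizer_RR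

theorem TY.card_Om (h : TY Q z Q' s t y) : Nat.card (Om z s) = 3 := by
  classical
  have hiff : ∀ v : G, (v ∈ VV z s ∧ v ≠ 1) ↔ v ∈ ({z, s, z * s} : Finset G) := by
    intro v
    rw [h.p.mem_VV]
    simp only [Finset.mem_insert, Finset.mem_singleton]
    constructor
    · rintro ⟨h1 | h1 | h1 | h1, h2⟩
      · exact absurd h1 h2
      · exact Or.inl h1
      · exact Or.inr (Or.inl h1)
      · exact Or.inr (Or.inr h1)
    · rintro (h1 | h1 | h1)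
      · exact ⟨Or.inr (Or.inl h1), by rw [h1]; exact h.p.z1⟩
      · exact ⟨Or.inr (Or.inr (Or.inl h1)), by rw [h1]; exact h.p.s1⟩
      · refine ⟨Or.inr (Or.inr (Or.inr h1)), ?_⟩
        rw [h1]
        intro h2
        apply h.p.ne
        calc z = z * (s * s) := by rw [h.p.ss, mul_one]
          _ = (z * s) * s := by group
          _ = s := by rw [h2, one_mul]
  have h3 : ({z, s, z * s} : Finset G).card = 3 := by
    rw [Finset.card_eq_three]
    exact ⟨z, s, z * s, h.p.ne, (h.zs_ne_z).symm, (h.zs_ne_s).symm, rfl⟩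
  show Nat.card {v : G // v ∈ VV z s ∧ v ≠ 1} = 3
  rw [Nat.card_congr (Equiv.subtypeEquivRight hiff), Nat.card_eq_fintype_card, Fintype.card_coe, h3]

theorem TY.finite_Om (h : TY Q z Q' s t y) : Finite (Om z s) :=
  Nat.finite_of_card_ne_zero (by rw [h.card_Om]; norm_num)

theorem TY.card_perm_Om (h : TY Q z Q' s t y) : Nat.card (Equiv.Perm (Om z s)) = 6 := by
  have := h.finite_Om
  rw [Nat.card_perm, h.card_Om]
  rfl

/-- An element of `X` whose square centralizes `V` but which does not, acts with order two. -/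
theorem TY.orderOf_rhoX_two (h : TY Q z Q' s t y) {a : G} (ha : a ∈ Q ⊔ Q')
    (haa : a * a ∈ CV z s) (hna : a ∉ CV z s) : orderOf (rhoX h.p ⟨a, ha⟩) = 2 := by
  have : Fact (Nat.Prime 2) := ⟨Nat.prime_two⟩
  apply orderOf_eq_prime
  · rw [← map_pow, rhoX_eq_one_iff, pow_two]
    exact haa
  · intro h1
    rw [rhoX_eq_one_iff] at h1
    exact hna h1

theorem TY.t_not_mem_CV (h : TY Q z Q' s t y) : t ∉ CV z s := by
  intro h1
  have h2 := conj_eq (mem_CV.mp h1).2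
  rw [h.ts] at h2
  exact h.zs_ne_s h2

theorem TY.y_not_mem_CV (h : TY Q z Q' s t y) : y ∉ CV z s := by
  intro h1
  have h2 := conj_eq (mem_CV.mp h1).1
  rw [h.yz'] at h2
  exact h.zs_ne_z h2

theorem TY.orderOf_rhoX_t (h : TY Q z Q' s t y) : orderOf (rhoX h.p ⟨t, h.tX⟩) = 2 :=
  h.orderOf_rhoX_two h.tX (RR_le_CV Q Q' z s h.tt_mem) h.t_not_mem_CV

theorem TY.orderOf_rhoX_y (h : TY Q z Q' s t y) : orderOf (rhoX h.p ⟨y, h.yX⟩) = 2 :=
  h.orderOf_rhoX_two h.yX (RR_le_CV Q Q' z s h.yy_mem) h.y_not_mem_CV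

theorem TY.orderOf_rhoX_ty (h : TY Q z Q' s t y) :
    orderOf (rhoX h.p ⟨t * y, Subgroup.mul_mem _ h.tX h.yX⟩) = 3 := by
  have : Fact (Nat.Prime 3) := ⟨Nat.prime_three⟩
  apply orderOf_eq_prime
  · rw [← map_pow, rhoX_eq_one_iff]
    have e : (((⟨t * y, Subgroup.mul_mem _ h.tX h.yX⟩ : ↥(Q ⊔ Q')) ^ 3 : ↥(Q ⊔ Q')) : G) =
        (t * y) * (t * y) * (t * y) := by
      rw [pow_succ, pow_two]; rfl
    rw [e, mem_CV]
    constructor
    · have h1 : (t * y * (t * y) * (t * y)) * z * (t * y * (t * y) * (t * y))⁻¹ = z := by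
        rw [conj_conj (t * y * (t * y)) (t * y) z, h.ty_z, conj_conj (t * y) (t * y) s, h.ty_s,
          Conj.conj_mul (t * y) z s, h.ty_z, h.ty_s, h.e3]
      have := congrArg (fun u => u * (t * y * (t * y) * (t * y))) h1
      simpa [mul_assoc] using this
    · have h1 : (t * y * (t * y) * (t * y)) * s * (t * y * (t * y) * (t * y))⁻¹ = s := by
        rw [conj_conj (t * y * (t * y)) (t * y) s, h.ty_s, conj_conj (t * y) (t * y) (z * s),
          Conj.conj_mul (t * y) z s, h.ty_z, h.ty_s, h.e3, h.ty_z]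
      have := congrArg (fun u => u * (t * y * (t * y) * (t * y))) h1
      simpa [mul_assoc] using this
  · intro h1
    rw [rhoX_eq_one_iff] at h1
    have h2 := conj_eq (mem_CV.mp h1).1
    rw [h.ty_z] at h2
    exact h.p.ne h2.symm

theorem TY.rhoX_surjective (h : TY Q z Q' s t y) : Function.Surjective (rhoX h.p) := by
  rw [← MonoidHom.range_eq_top]
  have := h.finite_Om
  have h2 : 2 ∣ Nat.card (rhoX h.p).range := by
    rw [← h.orderOf_rhoX_t]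
    exact Subgroup.orderOf_dvd_natCard _ (MonoidHom.mem_range.mpr ⟨_, rfl⟩)
  have h3 : 3 ∣ Nat.card (rhoX h.p).range := by
    rw [← h.orderOf_rhoX_ty]
    exact Subgroup.orderOf_dvd_natCard _ (MonoidHom.mem_range.mpr ⟨_, rfl⟩)
  have h6 : 6 ∣ Nat.card (rhoX h.p).range :=
    Nat.Coprime.mul_dvd_of_dvd_of_dvd (by norm_num) h2 h3
  have hle : Nat.card (rhoX h.p).range ∣ 6 := by
    rw [← h.card_perm_Om]
    exact Subgroup.card_subgroup_dvd_card _
  apply Subgroup.eq_top_of_card_eq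
  rw [h.card_perm_Om]
  exact Nat.dvd_antisymm hle h6

theorem TY.ker_rhoX (h : TY Q z Q' s t y) :
    (rhoX h.p).ker = (RR Q Q' z s).subgroupOf (Q ⊔ Q') := by
  ext x
  rw [MonoidHom.mem_ker, rhoX_eq_one_iff, Subgroup.mem_subgroupOf, ← h.X_inf_CV, Subgroup.mem_inf]
  exact ⟨fun hx => ⟨x.2, hx⟩, fun hx => hx.2⟩

/-- `X / R` is the symmetric group of degree three. -/
theorem TY.nonempty_iso (h : TY Q z Q' s t y) [hn : ((RR Q Q' z s).subgroupOf (Q ⊔ Q')).Normal] :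
    Nonempty (↥(Q ⊔ Q') ⧸ (RR Q Q' z s).subgroupOf (Q ⊔ Q') ≃* Equiv.Perm (Fin 3)) := by
  have e1 := QuotientGroup.quotientKerEquivOfSurjective (rhoX h.p) h.rhoX_surjective
  have e2 := QuotientGroup.quotientMulEquivOfEq h.ker_rhoX
  have e3 : Om z s ≃ Fin 3 :=
    (Nat.equivFinOfCardPos (by rw [h.card_Om]; norm_num)).trans (finCongr h.card_Om)
  exact ⟨(e2.symm.trans e1).trans e3.permCongrHom⟩

/-- Every element of the normalizer of `V` is a product of an element of `X` and an element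
centralizing `V`. -/
theorem TY.exists_mul_of_mem_normalizer (h : TY Q z Q' s t y) {n : G}
    (hn : n ∈ Subgroup.normalizer ((VV z s : Subgroup G) : Set G)) :
    ∃ x ∈ Q ⊔ Q', x⁻¹ * n ∈ CV z s := by
  obtain ⟨x, hx⟩ := h.rhoX_surjective (rho z s ⟨n, hn⟩)
  refine ⟨x, x.2, ?_⟩
  have h1 : rho z s ((Subgroup.inclusion h.p.X_le_normalizer x)⁻¹ * ⟨n, hn⟩) = 1 := by
    rw [map_mul, map_inv, ← hx]
    exact inv_mul_cancel _
  rw [rho_eq_one_iff h.p] at h1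
  exact h1

theorem TY.normalizer_eq (h : TY Q z Q' s t y) :
    Subgroup.normalizer ((VV z s : Subgroup G) : Set G) = (Q ⊔ Q') ⊔ CV z s := by
  apply le_antisymm
  · intro n hn
    obtain ⟨x, hx, hxn⟩ := h.exists_mul_of_mem_normalizer hn
    have e : n = x * (x⁻¹ * n) := by group
    rw [e]
    exact Subgroup.mul_mem _ (Subgroup.mem_sup_left hx) (Subgroup.mem_sup_right hxn)
  · exact sup_le h.p.X_le_normalizer (Subgroup.centralizer_le_normalizer _)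

/-- `X` is normal in the normalizer of `V`. -/
theorem TY.conj_mem_X (h : TY Q z Q' s t y) {n x : G}
    (hn : n ∈ Subgroup.normalizer ((VV z s : Subgroup G) : Set G)) (hx : x ∈ Q ⊔ Q') :
    n * x * n⁻¹ ∈ Q ⊔ Q' := by
  obtain ⟨x₀, hx₀, hc⟩ := h.exists_mul_of_mem_normalizer hn
  have h1 := RR_le_X Q Q' z s (h.p.comm_X_CV hx hc)
  have h2 : (x₀⁻¹ * n) * x * (x₀⁻¹ * n)⁻¹ ∈ Q ⊔ Q' := by
    have := Subgroup.mul_mem _ (Subgroup.inv_mem _ h1) hx
    have e : (x * (x₀⁻¹ * n) * x⁻¹ * (x₀⁻¹ * n)⁻¹)⁻¹ * x = (x₀⁻¹ * n) * x * (x₀⁻¹ * n)⁻¹ := by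
      group
    rwa [e] at this
  have h3 := Subgroup.mul_mem _ (Subgroup.mul_mem _ hx₀ h2) (Subgroup.inv_mem _ hx₀)
  have e : x₀ * ((x₀⁻¹ * n) * x * (x₀⁻¹ * n)⁻¹) * x₀⁻¹ = n * x * n⁻¹ := by group
  rwa [e] at h3

/-- The largest normal 2-subgroup of `X` lies in `R`. -/
theorem TY.pCore_le (h : TY Q z Q' s t y) :
    Cfsg.pCore 2 ↥(Q ⊔ Q') ≤ (RR Q Q' z s).subgroupOf (Q ⊔ Q') := by
  have := h.finite_Om
  rw [← h.ker_rhoX]
  intro x hx
  rw [MonoidHom.mem_ker]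
  have hM2 : IsPGroup 2 ((Cfsg.pCore 2 ↥(Q ⊔ Q')).map (rhoX h.p)) :=
    (Basic.pCore_isPGroup 2).map _
  have hMn : ((Cfsg.pCore 2 ↥(Q ⊔ Q')).map (rhoX h.p)).Normal :=
    (Basic.pCore_normal 2).map _ h.rhoX_surjective
  have hxM : rhoX h.p x ∈ (Cfsg.pCore 2 ↥(Q ⊔ Q')).map (rhoX h.p) :=
    Subgroup.mem_map_of_mem _ hx
  generalize (Cfsg.pCore 2 ↥(Q ⊔ Q')).map (rhoX h.p) = M at hM2 hMn hxM
  have key : ∀ σ : Equiv.Perm (Om z s), orderOf σ = 2 → M ≤ Subgroup.zpowers σ := by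
    intro σ hσ
    have hT : IsPGroup 2 (M ⊔ Subgroup.zpowers σ : Subgroup (Equiv.Perm (Om z s))) :=
      IsPGroup.to_sup_of_normal_left hM2
        (IsPGroup.of_card (n := 1) (by rw [Nat.card_zpowers, hσ]; rfl))
    have : Fact (Nat.Prime 2) := ⟨Nat.prime_two⟩
    obtain ⟨k, hk⟩ := IsPGroup.iff_card.mp hT
    have hdvd : Nat.card (M ⊔ Subgroup.zpowers σ : Subgroup (Equiv.Perm (Om z s))) ∣ 6 := by
      rw [← h.card_perm_Om]
      exact Subgroup.card_subgroup_dvd_card _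
    have hk1 : k ≤ 1 := by
      by_contra hk2
      push Not at hk2
      have h4 : 4 ∣ 6 := by
        calc 4 = 2 ^ 2 := rfl
          _ ∣ 2 ^ k := pow_dvd_pow 2 hk2
          _ ∣ 6 := hk ▸ hdvd
      omega
    have hle : Nat.card (M ⊔ Subgroup.zpowers σ : Subgroup (Equiv.Perm (Om z s))) ≤
        Nat.card (Subgroup.zpowers σ) := by
      rw [hk, Nat.card_zpowers, hσ]
      calc 2 ^ k ≤ 2 ^ 1 := Nat.pow_le_pow_right (by norm_num) hk1
        _ = 2 := rfl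
    have := Subgroup.eq_of_le_of_card_ge (le_sup_right : Subgroup.zpowers σ ≤ M ⊔ Subgroup.zpowers σ) hle
    rw [this]
    exact le_sup_left
  have hsq : ∀ σ : Equiv.Perm (Om z s), orderOf σ = 2 → σ * σ = 1 := by
    intro σ hσ
    have := pow_orderOf_eq_one σ
    rwa [hσ, pow_two] at this
  rcases (mem_zpowers_of_mul_self (hsq _ h.orderOf_rhoX_t)).mp (key _ h.orderOf_rhoX_t hxM)
    with h1 | h1
  · exact h1
  · rcases (mem_zpowers_of_mul_self (hsq _ h.orderOf_rhoX_y)).mp (key _ h.orderOf_rhoX_y hxM)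
      with h2 | h2
    · exact h2
    · exfalso
      have h3 : rhoX h.p ⟨t, h.tX⟩ = rhoX h.p ⟨y, h.yX⟩ := h1.symm.trans h2
      have h4 : t * z * t⁻¹ = y * z * y⁻¹ :=
        congrArg (fun σ : Equiv.Perm (Om z s) => (σ ⟨z, h.p.z_mem_VV, h.p.z1⟩).1) h3
      rw [h.ct_z, h.yz'] at h4
      exact h.zs_ne_z h4.symm

/-- `R` is the largest normal 2-subgroup of `X`. -/
theorem TY.RR_eq_pCore (h : TY Q z Q' s t y) (hQ2 : IsPGroup 2 Q) (hQ2' : IsPGroup 2 Q') :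
    RR Q Q' z s = (Cfsg.pCore 2 ↥(Q ⊔ Q')).map (Q ⊔ Q').subtype := by
  have hn : ((RR Q Q' z s).subgroupOf (Q ⊔ Q')).Normal := normal_RR h.p
  have hR2 : IsPGroup 2 (RR Q Q' z s) := by
    unfold RR
    apply IsPGroup.to_sup_of_normal_left' (hQ2'.to_le inf_le_left) (hQ2.to_le inf_le_left)
    apply le_normalizer_of_conj
    intro b hb a ha
    have ha' := mem_PP.mp ha
    have hb' := mem_PP.mp hb
    refine Subgroup.mem_inf.mpr ⟨h.p.e'.norm b hb'.2.2 a ha'.1, ?_⟩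
    exact Subgroup.mul_mem _ (Subgroup.mul_mem _ (Subgroup.mem_inf.mp hb).2
      (Subgroup.mem_inf.mp ha).2) (Subgroup.inv_mem _ (Subgroup.mem_inf.mp hb).2)
  apply le_antisymm
  · intro x hx
    have hxX := RR_le_X Q Q' z s hx
    have : (⟨x, hxX⟩ : ↥(Q ⊔ Q')) ∈ Cfsg.pCore 2 ↥(Q ⊔ Q') :=
      Basic.le_pCore 2 _ hn hR2.comap_subtype (Subgroup.mem_subgroupOf.mpr hx)
    exact ⟨⟨x, hxX⟩, this, rfl⟩
  · rintro _ ⟨c, hc, rfl⟩
    exact Subgroup.mem_subgroupOf.mp (h.pCore_le hc)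

end

end Cfsg.Agent.Lib.Helper90.ESPair2
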