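import Mathlib
import Cfsg.Agent.Lib.Helper24.ExStmt

/-!
# S5877, piece QUAD

`r` odd: if `a = cm y g` commutes with `g` but not with `y`, then `r * d ≤ 2 * n`.
-/

set_option autoImplicit false

namespace Cfsg.Agent.Lib.Helper90.ExQUAD

open Cfsg Cfsg.Agent.Lib.Helper24.ExStmt

universe u

section LinAlg

variable {F : Type u} [Field F] {V : Type*} [AddCommGroup V] [Module F V]

/-- triangular numbers -/
def tri : ℕ → ℕ
  | 0 => 0
  | (k + 1) => tri k + (k + 1)

theorem two_mul_tri (k : ℕ) : 2 * tri k = k * (k + 1) := by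
  induction k with
  | zero => simp [tri]
  | succ k ih => simp only [tri]; nlinarith

/-- finrank of a finite sup is at most the sum of finranks -/
theorem finrank_sup_le_sum [FiniteDimensional F V] {ι : Type*} (s : Finset ι)
    (U : ι → Submodule F V) :
    Module.finrank F (s.sup U : Submodule F V) ≤ ∑ i ∈ s, Module.finrank F (U i) := by
  classical
  induction s using Finset.induction_on with
  | empty => simp
  | insert i s hi ih =>
    rw [Finset.sup_insert, Finset.sum_insert hi]
    exact (Submodule.finrank_add_le_finrank_add_finrank _ _).trans (by omega)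

/-- sum of the dimensions of the parts of `U` in distinct eigenspaces is at most `dim U` -/
theorem sum_finrank_inf_eigenspace_le [FiniteDimensional F V] (G : Module.End F V)
    (U : Submodule F V) (s : Finset F) :
    ∑ γ ∈ s, Module.finrank F (U ⊓ Module.End.eigenspace G γ : Submodule F V) ≤
      Module.finrank F U := by
  classical
  have key : ∀ t : Finset F,
      Module.finrank F (t.sup (fun γ => U ⊓ Module.End.eigenspace G γ) : Submodule F V) =
        ∑ γ ∈ t, Module.finrank F (U ⊓ Module.End.eigenspace G γ : Submodule F V) := by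
    intro t
    induction t using Finset.induction_on with
    | empty => simp
    | insert γ₀ t hγ ih =>
      rw [Finset.sup_insert, Finset.sum_insert hγ, ← ih]
      have hind := (Module.End.eigenspaces_iSupIndep G).supIndep' (insert γ₀ t)
      have hdis : Disjoint (Module.End.eigenspace G γ₀)
          (t.sup (fun γ => Module.End.eigenspace G γ)) :=
        hind (Finset.subset_insert _ _) (Finset.mem_insert_self _ _) hγ
      have hdis' : Disjoint (U ⊓ Module.End.eigenspace G γ₀)
          (t.sup (fun γ => U ⊓ Module.End.eigenspace G γ)) := by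
        refine hdis.mono inf_le_right ?_
        exact Finset.sup_mono_fun (fun γ _ => inf_le_right)
      have h := Submodule.finrank_sup_add_finrank_inf_eq (U ⊓ Module.End.eigenspace G γ₀)
        (t.sup (fun γ => U ⊓ Module.End.eigenspace G γ))
      rw [hdis'.eq_bot, finrank_bot] at h
      omega
  rw [← key]
  exact Submodule.finrank_mono (Finset.sup_le (fun γ _ => inf_le_left))

/-- explicit eigen-decomposition of an invariant subspace for an operator with `A ^ r = 1`,
given a primitive `r`-th root of unity (`r` prime) -/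
theorem decomp (A : Module.End F V) (r : ℕ) (hr : r.Prime) (ε : F) (hε : IsPrimitiveRoot ε r)
    (hA : A ^ r = 1) (W : Submodule F V) (hW : ∀ w ∈ W, A w ∈ W) :
    W ≤ (Finset.range r).sup (fun k => W ⊓ Module.End.eigenspace A (ε ^ k)) := by
  intro w hw
  have : NeZero r := ⟨hr.ne_zero⟩
  have hr0 : (r : F) ≠ 0 := (hε.neZero').ne
  have hεr : ε ^ r = 1 := hε.pow_eq_one
  have hε0 : ε ≠ 0 := by
    intro h
    rw [h, zero_pow hr.ne_zero] at hεr
    exact zero_ne_one hεr
  have hWpow : ∀ j : ℕ, (A ^ j) w ∈ W := by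
    intro j
    induction j with
    | zero => simpa using hw
    | succ j ih =>
      rw [pow_succ', Module.End.mul_apply]
      exact hW _ ih
  set p : ℕ → V := fun k => (r : F)⁻¹ • ∑ j ∈ Finset.range r, ((ε ^ k)⁻¹) ^ j • (A ^ j) w with hp
  have hp_mem : ∀ k, p k ∈ W := by
    intro k
    exact W.smul_mem _ (W.sum_mem (fun j _ => W.smul_mem _ (hWpow j)))
  have hp_eig : ∀ k, A (p k) = ε ^ k • p k := by
    intro k
    have ht0 : ε ^ k ≠ 0 := pow_ne_zero _ hε0
    have htr : ((ε ^ k)⁻¹) ^ r = 1 := by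
      rw [inv_pow, ← pow_mul, mul_comm, pow_mul, hεr, one_pow, inv_one]
    have hshift : ∑ j ∈ Finset.range r, ((ε ^ k)⁻¹) ^ (j + 1) • (A ^ (j + 1)) w =
        ∑ j ∈ Finset.range r, ((ε ^ k)⁻¹) ^ j • (A ^ j) w := by
      have h1 := Finset.sum_range_succ' (fun j => ((ε ^ k)⁻¹) ^ j • (A ^ j) w) r
      have h2 := Finset.sum_range_succ (fun j => ((ε ^ k)⁻¹) ^ j • (A ^ j) w) r
      simp only [htr, hA, pow_zero, Module.End.one_apply, one_smul] at h1 h2
      rw [h2] at h1
      exact (add_right_cancel h1).symm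
    have hstep : ∀ j, A (((ε ^ k)⁻¹) ^ j • (A ^ j) w) =
        ε ^ k • (((ε ^ k)⁻¹) ^ (j + 1) • (A ^ (j + 1)) w) := by
      intro j
      rw [map_smul, pow_succ' A, Module.End.mul_apply, smul_smul]
      congr 1
      rw [pow_succ]
      field_simp
    show A ((r : F)⁻¹ • ∑ j ∈ Finset.range r, ((ε ^ k)⁻¹) ^ j • (A ^ j) w) =
      ε ^ k • ((r : F)⁻¹ • ∑ j ∈ Finset.range r, ((ε ^ k)⁻¹) ^ j • (A ^ j) w)
    rw [map_smul, map_sum, Finset.sum_congr rfl (fun j _ => hstep j), ← Finset.smul_sum, hshift,
      smul_comm]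
  have hsum : ∑ k ∈ Finset.range r, p k = w := by
    simp only [hp]
    rw [← Finset.smul_sum, Finset.sum_comm]
    have hinner : ∀ j ∈ Finset.range r,
        ∑ k ∈ Finset.range r, ((ε ^ k)⁻¹) ^ j • (A ^ j) w =
          (if j = 0 then (r : F) else 0) • (A ^ j) w := by
      intro j hj
      rw [← Finset.sum_smul]
      congr 1
      by_cases hj0 : j = 0
      · subst hj0
        simp
      · rw [if_neg hj0]
        have hjr : j < r := Finset.mem_range.1 hj
        have hcop : Nat.Coprime j r := by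
          rw [Nat.coprime_comm]
          exact (Nat.Prime.coprime_iff_not_dvd hr).2 (fun h => hj0 (Nat.eq_zero_of_dvd_of_lt h hjr))
        have hprim : IsPrimitiveRoot ((ε ^ j)⁻¹) r := (hε.pow_of_coprime j hcop).inv
        have h0 := hprim.geom_sum_eq_zero hr.one_lt
        rw [← h0]
        refine Finset.sum_congr rfl (fun k _ => ?_)
        rw [inv_pow, inv_pow, ← pow_mul, ← pow_mul, mul_comm]
    rw [Finset.sum_congr rfl hinner, Finset.sum_eq_single 0]
    · simp [hr0]
    · intro j _ hj0
      simp [hj0]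
    · intro h
      exact absurd (Finset.mem_range.2 hr.pos) h
  rw [← hsum]
  refine Submodule.sum_mem _ (fun k hk => ?_)
  have hle : (W ⊓ Module.End.eigenspace A (ε ^ k)) ≤
      (Finset.range r).sup (fun k => W ⊓ Module.End.eigenspace A (ε ^ k)) :=
    Finset.le_sup (f := fun k => W ⊓ Module.End.eigenspace A (ε ^ k)) hk
  exact hle ⟨hp_mem k, Module.End.mem_eigenspace_iff.2 (hp_eig k)⟩

end LinAlg

theorem tri_fiber (r : ℕ) (hr : r.Prime) (k k' : ℕ) (hk : k < r) (hk' : k' < r)
    (h : tri k ≡ tri k' [MOD r]) : k = k' ∨ k + k' + 1 = r := by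
  have h1 : (r : ℤ) ∣ (tri k' : ℤ) - tri k := (Nat.modEq_iff_dvd).1 h
  have h2 : (r : ℤ) ∣ ((k' : ℤ) - k) * ((k' : ℤ) + k + 1) := by
    have e : ((k' : ℤ) - k) * ((k' : ℤ) + k + 1) = 2 * ((tri k' : ℤ) - tri k) := by
      have a1 := two_mul_tri k
      have a2 := two_mul_tri k'
      have a1' : (2 : ℤ) * tri k = k * (k + 1) := by exact_mod_cast a1
      have a2' : (2 : ℤ) * tri k' = k' * (k' + 1) := by exact_mod_cast a2
      linear_combination a1' - a2'
    rw [e]
    exact Dvd.dvd.mul_left h1 2
  have hp : Prime (r : ℤ) := Nat.prime_iff_prime_int.1 hr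
  rcases hp.dvd_or_dvd h2 with h3 | h3
  · left
    have h0 : (k' : ℤ) - k = 0 :=
      Int.eq_zero_of_abs_lt_dvd h3 (by rw [abs_lt]; constructor <;> omega)
    omega
  · right
    have h4 : r ∣ k' + k + 1 := by exact_mod_cast h3
    obtain ⟨t, ht⟩ := h4
    have ht1 : t = 1 := by
      rcases t with _ | _ | t
      · omega
      · rfl
      · exfalso
        nlinarith
    subst ht1
    omega

section Core

variable {F : Type u} [Field F] {V : Type*} [AddCommGroup V] [Module F V] [FiniteDimensional F V]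

theorem step (A G Yi : Module.End F V) (ε : F) (hε0 : ε ≠ 0) (hYi : Function.Injective Yi)
    (h1 : Yi * A = ε • (A * Yi)) (h2 : G * Yi = Yi * A * G) (η γ : F) :
    Module.finrank F (Module.End.eigenspace A η ⊓ Module.End.eigenspace G γ : Submodule F V) ≤
      Module.finrank F
        (Module.End.eigenspace A (ε⁻¹ * η) ⊓ Module.End.eigenspace G (γ * η) : Submodule F V) := by
  have hmap : (Module.End.eigenspace A η ⊓ Module.End.eigenspace G γ).map Yi ≤
      Module.End.eigenspace A (ε⁻¹ * η) ⊓ Module.End.eigenspace G (γ * η) := by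
    rintro _ ⟨v, hv, rfl⟩
    have hvA : A v = η • v := Module.End.mem_eigenspace_iff.1 hv.1
    have hvG : G v = γ • v := Module.End.mem_eigenspace_iff.1 hv.2
    refine ⟨Module.End.mem_eigenspace_iff.2 ?_, Module.End.mem_eigenspace_iff.2 ?_⟩
    · have h := congrArg (fun T : Module.End F V => T v) h1
      simp only [Module.End.mul_apply, LinearMap.smul_apply, hvA, map_smul] at h
      rw [mul_smul, h, smul_smul, inv_mul_cancel₀ hε0, one_smul]
    · have h := congrArg (fun T : Module.End F V => T v) h2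
      simp only [Module.End.mul_apply, hvG, hvA, map_smul] at h
      rw [h, smul_smul]
  calc Module.finrank F (Module.End.eigenspace A η ⊓ Module.End.eigenspace G γ : Submodule F V)
      = Module.finrank F
          ((Module.End.eigenspace A η ⊓ Module.End.eigenspace G γ).map Yi : Submodule F V) :=
        (LinearEquiv.finrank_eq (Submodule.equivMapOfInjective Yi hYi _))
    _ ≤ _ := Submodule.finrank_mono hmap

theorem iter (A G Yi : Module.End F V) (ε : F) (hε0 : ε ≠ 0) (hYi : Function.Injective Yi)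
    (h1 : Yi * A = ε • (A * Yi)) (h2 : G * Yi = Yi * A * G) (k : ℕ) (γ : F) :
    Module.finrank F (Module.End.eigenspace A (ε ^ k) ⊓ Module.End.eigenspace G γ : Submodule F V) ≤
      Module.finrank F
        (Module.End.eigenspace A 1 ⊓ Module.End.eigenspace G (γ * ε ^ tri k) : Submodule F V) := by
  induction k generalizing γ with
  | zero =>
    have e : tri 0 = 0 := rfl
    rw [e, pow_zero, mul_one]
  | succ k ih =>
    have hs := step A G Yi ε hε0 hYi h1 h2 (ε ^ (k + 1)) γ
    have he : ε⁻¹ * ε ^ (k + 1) = ε ^ k := by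
      rw [pow_succ]
      field_simp
    rw [he] at hs
    refine hs.trans ?_
    have h := ih (γ * ε ^ (k + 1))
    have he2 : γ * ε ^ (k + 1) * ε ^ tri k = γ * ε ^ tri (k + 1) := by
      simp only [tri]
      rw [pow_add]
      ring
    rwa [he2] at h

theorem core (A G Yi : Module.End F V) (r : ℕ) (hr : r.Prime) (ε : Fˣ) (hε : orderOf ε = r)
    (hYi : Function.Injective Yi) (h1 : Yi * A = (ε : F) • (A * Yi)) (h2 : G * Yi = Yi * A * G)
    (h3 : G * A = A * G) (h4 : A ^ r = 1) (c : F) (hc : c ≠ 0) :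
    Module.finrank F (Module.End.eigenspace G c) ≤
      2 * Module.finrank F (Module.End.eigenspace A 1) := by
  classical
  have hprim : IsPrimitiveRoot (ε : F) r := by
    rw [IsPrimitiveRoot.coe_units_iff, IsPrimitiveRoot.iff_orderOf]
    exact hε
  have hε0 : (ε : F) ≠ 0 := ε.ne_zero
  have hW : ∀ w ∈ Module.End.eigenspace G c, A w ∈ Module.End.eigenspace G c := by
    intro w hw
    rw [Module.End.mem_eigenspace_iff] at hw ⊢
    have h := congrArg (fun T : Module.End F V => T w) h3
    simp only [Module.End.mul_apply, hw, map_smul] at h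
    exact h
  have hdec := decomp A r hr (ε : F) hprim h4 (Module.End.eigenspace G c) hW
  have hle1 : Module.finrank F (Module.End.eigenspace G c) ≤
      ∑ k ∈ Finset.range r, Module.finrank F
        (Module.End.eigenspace G c ⊓ Module.End.eigenspace A ((ε : F) ^ k) : Submodule F V) :=
    (Submodule.finrank_mono hdec).trans (finrank_sup_le_sum _ _)
  have hle2 : ∀ k ∈ Finset.range r, Module.finrank F
        (Module.End.eigenspace G c ⊓ Module.End.eigenspace A ((ε : F) ^ k) : Submodule F V) ≤
      Module.finrank F (Module.End.eigenspace A 1 ⊓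
        Module.End.eigenspace G (c * (ε : F) ^ tri k) : Submodule F V) := by
    intro k _
    rw [inf_comm]
    exact iter A G Yi (ε : F) hε0 hYi h1 h2 k c
  have hfib : ∀ γ : F, (Finset.filter (fun k => c * (ε : F) ^ tri k = γ) (Finset.range r)).card ≤ 2 := by
    intro γ
    rcases (Finset.filter (fun k => c * (ε : F) ^ tri k = γ) (Finset.range r)).eq_empty_or_nonempty
      with he | ⟨k₀, hk₀⟩
    · rw [he]
      simp
    · have hsub : Finset.filter (fun k => c * (ε : F) ^ tri k = γ) (Finset.range r) ⊆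
          {k₀, r - 1 - k₀} := by
        intro k hk
        rw [Finset.mem_filter, Finset.mem_range] at hk hk₀
        have heq : (ε : F) ^ tri k = (ε : F) ^ tri k₀ :=
          mul_left_cancel₀ hc (hk.2.trans hk₀.2.symm)
        have heq' : ε ^ tri k = ε ^ tri k₀ := by
          apply Units.ext
          simpa using heq
        have hmod : tri k ≡ tri k₀ [MOD r] := by
          rw [← hε]
          exact pow_eq_pow_iff_modEq.1 heq'
        rcases tri_fiber r hr k k₀ hk.1 hk₀.1 hmod with h | h
        · rw [h]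
          simp
        · have : k = r - 1 - k₀ := by omega
          rw [this]
          simp
      exact (Finset.card_le_card hsub).trans Finset.card_le_two
  have hle3 : ∑ k ∈ Finset.range r, Module.finrank F (Module.End.eigenspace A 1 ⊓
        Module.End.eigenspace G (c * (ε : F) ^ tri k) : Submodule F V) ≤
      2 * Module.finrank F (Module.End.eigenspace A 1) := by
    rw [Finset.sum_comp (fun γ => Module.finrank F (Module.End.eigenspace A 1 ⊓
        Module.End.eigenspace G γ : Submodule F V)) (fun k => c * (ε : F) ^ tri k)]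
    calc _ ≤ ∑ γ ∈ (Finset.range r).image (fun k => c * (ε : F) ^ tri k),
          2 * Module.finrank F (Module.End.eigenspace A 1 ⊓
            Module.End.eigenspace G γ : Submodule F V) := by
          refine Finset.sum_le_sum (fun γ _ => ?_)
          rw [smul_eq_mul]
          exact Nat.mul_le_mul_right _ (hfib γ)
      _ = 2 * ∑ γ ∈ (Finset.range r).image (fun k => c * (ε : F) ^ tri k),
          Module.finrank F (Module.End.eigenspace A 1 ⊓
            Module.End.eigenspace G γ : Submodule F V) := by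
          rw [Finset.mul_sum]
      _ ≤ 2 * Module.finrank F (Module.End.eigenspace A 1) :=
          Nat.mul_le_mul_left 2 (sum_finrank_inf_eigenspace_le G _ _)
  exact hle1.trans ((Finset.sum_le_sum hle2).trans hle3)

end Core

/-- the `0`-eigenspace of an invertible matrix is trivial -/
theorem eDim_zero {F : Type u} [Field F] {n : ℕ} (g : GLn n F) : eDim g 0 = 0 := by
  unfold eDim
  have hbot : Module.End.eigenspace (Matrix.toLin' (g : Matrix (Fin n) (Fin n) F)) 0 = ⊥ := by
    rw [eq_bot_iff]
    intro v hv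
    rw [Module.End.mem_eigenspace_iff, zero_smul, Matrix.toLin'_apply] at hv
    have h : ((g⁻¹ : GLn n F) : Matrix (Fin n) (Fin n) F).mulVec
        ((g : Matrix (Fin n) (Fin n) F).mulVec v) = v := by
      rw [Matrix.mulVec_mulVec, ← Units.val_mul, inv_mul_cancel, Units.val_one, Matrix.one_mulVec]
    rw [hv, Matrix.mulVec_zero] at h
    rw [Submodule.mem_bot]
    exact h.symm
  rw [hbot, finrank_bot]

theorem main : BasA.{u} → BasB.{u} → EigBound.{u} → Quad.{u} := by
  intro hA hB hE F _ _ n r R S hodd g hg y hy hga hay c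
  obtain ⟨hA1, hA2, hA3⟩ := hA F n r R S
  obtain ⟨hB1, hB2, hB3, hB4⟩ := hB F n r R S
  have hr := S.hr
  have : Fact r.Prime := ⟨hr⟩
  by_cases hc : c = 0
  · rw [hc, eDim_zero]
    omega
  have hn : n ≠ 0 := by
    rintro rfl
    exact hay (Units.ext (Subsingleton.elim _ _))
  obtain ⟨a, ha⟩ : ∃ a : GLn n F, a = cm y g := ⟨_, rfl⟩
  rw [← ha] at hga hay
  have haR : a ∈ R := by
    have h1 : g * y⁻¹ * g⁻¹ ∈ R := hB4 hodd g hg y⁻¹ (R.inv_mem hy)
    have h2 : a = y * (g * y⁻¹ * g⁻¹) := by
      rw [ha]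
      simp only [cm]
      group
    rw [h2]
    exact R.mul_mem hy h1
  have har : a ^ r = 1 := hB3 hodd a haR
  obtain ⟨hzS, hzR⟩ := hA2 a (Subgroup.mem_sup_left haR) y (Subgroup.mem_sup_left hy)
  obtain ⟨ε, hε⟩ := (Cfsg.Geo.mem_scalars_iff _).1 hzS
  have hε1 : ε ≠ 1 := by
    rintro rfl
    have h1 : a * y * a⁻¹ * y⁻¹ = 1 := by
      apply Units.ext
      rw [hε]
      simp
    apply hay
    have h2 : a * y = (a * y * a⁻¹ * y⁻¹) * (y * a) := by group
    rw [h2, h1, one_mul]
  have hεr : ε ^ r = 1 := by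
    have h1 : (a * y * a⁻¹ * y⁻¹) ^ r = 1 := hB3 hodd _ hzR
    have h2 := congrArg (fun x : GLn n F => (x : Matrix (Fin n) (Fin n) F)) h1
    simp only [Units.val_pow_eq_pow_val, hε, Units.val_one] at h2
    rw [smul_pow, one_pow] at h2
    have h3 := congrFun (congrFun h2 ⟨0, Nat.pos_of_ne_zero hn⟩) ⟨0, Nat.pos_of_ne_zero hn⟩
    simp only [Matrix.smul_apply, Matrix.one_apply_eq, smul_eq_mul, mul_one] at h3
    apply Units.ext
    simpa using h3
  have hord : orderOf ε = r := orderOf_eq_prime hεr hε1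
  have haS : a ∉ Sc n F := by
    intro h
    obtain ⟨t, ht⟩ := (Cfsg.Geo.mem_scalars_iff _).1 h
    apply hay
    apply Units.ext
    rw [Units.val_mul, Units.val_mul, ht]
    simp
  have hEa : r * eDim a 1 ≤ n := hE F n r R S a (Subgroup.mem_sup_left haR) haS 1
  -- matrix relations
  have hM1 : ((y⁻¹ : GLn n F) : Matrix (Fin n) (Fin n) F) * (a : Matrix (Fin n) (Fin n) F) =
      (ε : F) • ((a : Matrix (Fin n) (Fin n) F) * ((y⁻¹ : GLn n F) : Matrix (Fin n) (Fin n) F)) := by
    have e1 : y⁻¹ * a = y⁻¹ * (a * y * a⁻¹ * y⁻¹) * y * (a * y⁻¹) := by group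
    have e1m : ((y⁻¹ * a : GLn n F) : Matrix (Fin n) (Fin n) F) =
        ((y⁻¹ : GLn n F) : Matrix (Fin n) (Fin n) F) *
          ((a * y * a⁻¹ * y⁻¹ : GLn n F) : Matrix (Fin n) (Fin n) F) *
          (y : Matrix (Fin n) (Fin n) F) * ((a * y⁻¹ : GLn n F) : Matrix (Fin n) (Fin n) F) := by
      rw [← Units.val_mul, ← Units.val_mul, ← Units.val_mul, ← e1]
    rw [hε, Matrix.mul_smul, Matrix.mul_one, Matrix.smul_mul, Matrix.smul_mul, ← Units.val_mul,
      inv_mul_cancel, Units.val_one, Matrix.one_mul, Units.val_mul, Units.val_mul] at e1m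
    exact e1m
  have hM2 : (g : Matrix (Fin n) (Fin n) F) * ((y⁻¹ : GLn n F) : Matrix (Fin n) (Fin n) F) =
      ((y⁻¹ : GLn n F) : Matrix (Fin n) (Fin n) F) * (a : Matrix (Fin n) (Fin n) F) *
        (g : Matrix (Fin n) (Fin n) F) := by
    have e2 : g * y⁻¹ = y⁻¹ * a * g := by
      rw [ha]
      simp only [cm]
      group
    have e2m := congrArg (fun x : GLn n F => (x : Matrix (Fin n) (Fin n) F)) e2
    simpa only [Units.val_mul] using e2m
  have hM3 : (g : Matrix (Fin n) (Fin n) F) * (a : Matrix (Fin n) (Fin n) F) =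
      (a : Matrix (Fin n) (Fin n) F) * (g : Matrix (Fin n) (Fin n) F) := by
    have e3m := congrArg (fun x : GLn n F => (x : Matrix (Fin n) (Fin n) F)) hga
    simpa only [Units.val_mul] using e3m
  have hM4 : (a : Matrix (Fin n) (Fin n) F) ^ r = 1 := by
    have e4m := congrArg (fun x : GLn n F => (x : Matrix (Fin n) (Fin n) F)) har
    simpa only [Units.val_pow_eq_pow_val, Units.val_one] using e4m
  -- linear maps
  let φ : Matrix (Fin n) (Fin n) F ≃ₐ[F] Module.End F (Fin n → F) := Matrix.toLinAlgEquiv'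
  have hφ : ∀ M : Matrix (Fin n) (Fin n) F, φ M = Matrix.toLin' M := fun M => rfl
  have hYi : Function.Injective (φ ((y⁻¹ : GLn n F) : Matrix (Fin n) (Fin n) F)) := by
    have hleft : φ (y : Matrix (Fin n) (Fin n) F) * φ ((y⁻¹ : GLn n F) : Matrix (Fin n) (Fin n) F)
        = 1 := by
      rw [← map_mul, ← Units.val_mul, mul_inv_cancel, Units.val_one, map_one]
    intro v w hvw
    have h1 := congrArg (fun T : Module.End F (Fin n → F) => T v) hleft
    have h2 := congrArg (fun T : Module.End F (Fin n → F) => T w) hleft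
    simp only [Module.End.mul_apply, Module.End.one_apply] at h1 h2
    rw [← h1, ← h2, hvw]
  have h1 : φ ((y⁻¹ : GLn n F) : Matrix (Fin n) (Fin n) F) * φ (a : Matrix (Fin n) (Fin n) F) =
      (ε : F) • (φ (a : Matrix (Fin n) (Fin n) F) *
        φ ((y⁻¹ : GLn n F) : Matrix (Fin n) (Fin n) F)) := by
    rw [← map_mul, ← map_mul, hM1, map_smul]
  have h2 : φ (g : Matrix (Fin n) (Fin n) F) * φ ((y⁻¹ : GLn n F) : Matrix (Fin n) (Fin n) F) =
      φ ((y⁻¹ : GLn n F) : Matrix (Fin n) (Fin n) F) * φ (a : Matrix (Fin n) (Fin n) F) *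
        φ (g : Matrix (Fin n) (Fin n) F) := by
    rw [← map_mul, ← map_mul, ← map_mul, hM2]
  have h3 : φ (g : Matrix (Fin n) (Fin n) F) * φ (a : Matrix (Fin n) (Fin n) F) =
      φ (a : Matrix (Fin n) (Fin n) F) * φ (g : Matrix (Fin n) (Fin n) F) := by
    rw [← map_mul, ← map_mul, hM3]
  have h4 : φ (a : Matrix (Fin n) (Fin n) F) ^ r = 1 := by
    rw [← map_pow, hM4, map_one]
  have hcore := core (φ (a : Matrix (Fin n) (Fin n) F)) (φ (g : Matrix (Fin n) (Fin n) F))
    (φ ((y⁻¹ : GLn n F) : Matrix (Fin n) (Fin n) F)) r hr ε hord hYi h1 h2 h3 h4 c hc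
  have hcore' : eDim g c ≤ 2 * eDim a 1 := hcore
  calc r * eDim g c ≤ r * (2 * eDim a 1) := Nat.mul_le_mul_left r hcore'
    _ = 2 * (r * eDim a 1) := by ring
    _ ≤ 2 * n := Nat.mul_le_mul_left 2 hEa

end Cfsg.Agent.Lib.Helper90.ExQUAD
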