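import Mathlib
import Cfsg.Agent.Lib.Helper40.GFStmt
import Cfsg.Agent.Lib.Helper40.KStr

/-!
S5886 piece R2SPECIAL (helper90, extra seat): `[L : F] = 2`, `E(ν) ∈ c.M` with `ν` not a
multiplication gives a special transvection.
-/

set_option autoImplicit false

universe u

namespace Cfsg.Agent.Lib.Helper90.GFR2SPECIAL

open Cfsg.Agent.Lib.Helper40.GFStmt

theorem main : R2Special.{u} := by
  intro F L _ _ _ _ k c h2 τ hτ v ψ ν hv hψ0 hψ hν hin
  classical
  have hfd : FiniteDimensional F L := Module.finite_of_finrank_pos (by rw [h2]; norm_num)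
  -- `ν' = ν - m_(ν 1)`
  obtain ⟨ν', hν'⟩ : ∃ ν' : L →ₗ[F] L, ν' = ν - LinearMap.mulLeft F (ν 1) := ⟨_, rfl⟩
  have hin' : InSig c v ψ ν' := by
    rw [hν']
    exact inSig_sub c v ψ hψ hin (inSig_mulLeft c v ψ hψ (ν 1))
  have hν'1 : ν' 1 = 0 := by
    rw [hν', LinearMap.sub_apply, LinearMap.mulLeft_apply, mul_one, sub_self]
  have hν'0 : ν' ≠ 0 := by
    intro h0
    apply hν (ν 1)
    rw [hν', sub_eq_zero] at h0
    exact h0
  obtain ⟨x₁, hx₁⟩ : ∃ x₁ : L, ν' x₁ ≠ 0 := by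
    by_contra hcon
    apply hν'0
    ext x
    by_contra hx
    exact hcon ⟨x, hx⟩
  obtain ⟨z', hz'⟩ : ∃ z' : L, z' = ν' x₁ := ⟨_, rfl⟩
  have hz'0 : z' ≠ 0 := by rw [hz']; exact hx₁
  -- the range of `ν'` is the line `F z'`
  have hker : 1 ≤ Module.finrank F (LinearMap.ker ν') := by
    have h1 : (⟨1, hν'1⟩ : LinearMap.ker ν') ≠ 0 := by
      intro h
      have := congrArg Subtype.val h
      exact one_ne_zero this
    have := (Module.finrank_pos_iff_exists_ne_zero (R := F) (M := LinearMap.ker ν')).mpr ⟨_, h1⟩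
    omega
  have hrn := LinearMap.finrank_range_add_finrank_ker ν'
  rw [h2] at hrn
  have hrange : Module.finrank F (LinearMap.range ν') ≤ 1 := by omega
  have hspan : ∀ y : L, ∃ s : F, ν' y = s • z' := by
    intro y
    have hle : Submodule.span F {z'} ≤ LinearMap.range ν' := by
      rw [Submodule.span_singleton_le_iff_mem, hz']
      exact LinearMap.mem_range_self ν' x₁
    have hfs : Module.finrank F (Submodule.span F {z'}) = 1 := finrank_span_singleton hz'0
    have heq : Submodule.span F {z'} = LinearMap.range ν' :=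
      Submodule.eq_of_le_of_finrank_le hle (by rw [hfs]; exact hrange)
    have hy : ν' y ∈ Submodule.span F {z'} := by
      rw [heq]; exact LinearMap.mem_range_self ν' y
    obtain ⟨s, hs⟩ := Submodule.mem_span_singleton.mp hy
    exact ⟨s, hs.symm⟩
  -- a functional with `lam z' = 1`
  obtain ⟨w, hw⟩ : ∃ w : L, τ w ≠ 0 := by
    by_contra hcon
    apply hτ
    ext x
    by_contra hx
    exact hcon ⟨x, hx⟩
  obtain ⟨lam, hlam⟩ : ∃ lam : L →ₗ[F] F, lam z' = 1 := by
    refine ⟨(τ w)⁻¹ • (τ ∘ₗ LinearMap.mulLeft F (z'⁻¹ * w)), ?_⟩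
    rw [LinearMap.smul_apply, LinearMap.comp_apply, LinearMap.mulLeft_apply, smul_eq_mul]
    have e1 : z'⁻¹ * w * z' = w := by
      rw [mul_comm, ← mul_assoc, mul_inv_cancel₀ hz'0, one_mul]
    rw [e1, inv_mul_cancel₀ hw]
  obtain ⟨b', hb'⟩ : ∃ b' : L →ₗ[F] F, b' = lam ∘ₗ ν' := ⟨_, rfl⟩
  have hb'ν : ∀ y : L, ν' y = b' y • z' := by
    intro y
    obtain ⟨s, hs⟩ := hspan y
    rw [hb', LinearMap.comp_apply, hs, map_smul, hlam, smul_eq_mul, mul_one]
  have hb'0 : b' ≠ 0 := by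
    intro h0
    have h1 : b' x₁ = 1 := by rw [hb', LinearMap.comp_apply, ← hz', hlam]
    rw [h0, LinearMap.zero_apply] at h1
    exact zero_ne_one h1
  obtain ⟨cb, hcb⟩ := Cfsg.Agent.Lib.Helper40.KStr.exists_rep τ hτ b'
  have hcb0 : cb ≠ 0 := by
    rintro rfl
    apply hb'0
    ext a
    rw [hcb a, mul_zero, map_zero, LinearMap.zero_apply]
  obtain ⟨e', he'M, he'⟩ := hin'
  refine ⟨e', he'M, z' • v, cb • ψ, smul_ne_zero hz'0 hv, smul_ne_zero hcb0 hψ0, ?_, ?_⟩
  · rw [LinearMap.smul_apply, map_smul, hψ, smul_zero, smul_zero]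
  · intro x
    rw [he', hb'ν, hcb, LinearMap.smul_apply, smul_eq_mul, mul_comm (ψ x) cb, smul_assoc]

end Cfsg.Agent.Lib.Helper90.GFR2SPECIAL
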