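import Mathlib
import Cfsg.Agent.Lib.Helper40.HPStmt
import Cfsg.Agent.Lib.Helper38.HypHYPCNT
import Cfsg.Agent.Lib.Helper44.OTyp1
import Cfsg.Agent.Lib.Helper44.NegPairs

set_option autoImplicit false

/-!
S5974 piece HYPCNTJ (helper90): port of `Helper38.HypHYPCNT` to plus-type spaces.  The number of
ordered hyperbolic systems of `h` pairs in a hyperbolic space of dimension `2 k` is counted by
induction; the complement of a hyperbolic pair is again hyperbolic by counting singular vectors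
(`OTyp1.card_P`, `card_M`, `NP_ne_NM`).
-/

namespace Cfsg.Agent.Lib.Helper90.HPHYPCNTJ

open Module QuadraticMap
open Cfsg.Agent.Lib.Helper44.Split Cfsg.Agent.Lib.Helper44.QSpace
open Cfsg.Agent.Lib.Helper44.QClass Cfsg.Agent.Lib.Helper44.QBasis
open Cfsg.Agent.Lib.Helper44.SpinCount Cfsg.Agent.Lib.Helper44.OTyp1
open Cfsg.Agent.Lib.Helper44.NegPairs
open Cfsg.Agent.Lib.Helper38.HypHYPCNT

universe u

section abstract

variable {F : Type*} [Field F] {V : Type u} [AddCommGroup V] [Module F V]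

/-- number of nonzero singular vectors of a hyperbolic space of dimension `2 (k + 1)` -/
theorem card_sing_ne_plus [Fintype F] [FiniteDimensional F V] (Q : QuadraticForm F V) (k : ℕ)
    {e f : Fin (k + 1) → V} (hH : IsHyp Q e f) (hV : finrank F V = 2 * (k + 1)) :
    Nat.card {v : V // Q v = 0 ∧ v ≠ 0}
      = (Fintype.card F ^ (k + 1) - 1) * (Fintype.card F ^ k + 1) := by
  classical
  have : Finite V := Module.finite_of_finite F
  have hP := card_P Q hH hV
  have hsplit : Nat.card {v : V // Q v = 0 ∧ v ≠ 0} + 1 = Nat.card {v : V // Q v = 0} := by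
    have e := Nat.card_congr (Equiv.sumCompl (fun x : {v : V // Q v = 0} => (x : V) = 0))
    rw [Nat.card_sum] at e
    rw [← e]
    have h1 : Nat.card {x : {v : V // Q v = 0} // (x : V) = 0} = 1 := by
      rw [Nat.card_eq_one_iff_unique]
      refine ⟨⟨?_⟩, ⟨⟨⟨0, QuadraticMap.map_zero Q⟩, rfl⟩⟩⟩
      rintro ⟨⟨a, ha⟩, ha'⟩ ⟨⟨b, hb⟩, hb'⟩
      apply Subtype.ext
      apply Subtype.ext
      show a = b
      rw [show a = 0 from ha', show b = 0 from hb']
    have h2 : Nat.card {x : {v : V // Q v = 0} // ¬ (x : V) = 0}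
        = Nat.card {v : V // Q v = 0 ∧ v ≠ 0} :=
      Nat.card_congr (Equiv.subtypeSubtypeEquivSubtypeInter (fun v : V => Q v = 0)
        (fun v => ¬ v = 0))
    rw [h1, h2]
    omega
  have hq : 0 < Fintype.card F := Fintype.card_pos
  obtain ⟨q, hqd⟩ : ∃ q, q = Fintype.card F := ⟨_, rfl⟩
  obtain ⟨M, hM⟩ : ∃ M, M = Nat.card {v : V // Q v = 0 ∧ v ≠ 0} := ⟨_, rfl⟩
  rw [← hsplit, ← hM, ← hqd] at hP
  rw [← hM, ← hqd]
  rw [← hqd] at hq
  obtain ⟨B, hB⟩ : ∃ B, q ^ (k + 1) = B + 1 :=
    ⟨q ^ (k + 1) - 1, by have := Nat.one_le_pow (k + 1) q hq; omega⟩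
  have h2 : q ^ (k + 1 + 1) = (B + 1) * q := by rw [pow_succ, hB]
  have hA : q ^ k * q = B + 1 := by rw [← pow_succ, hB]
  rw [h2, hB, Nat.add_sub_cancel] at hP
  rw [hB, Nat.add_sub_cancel]
  apply Nat.eq_of_mul_eq_mul_right hq
  have h3 : M * q = B * q + B * (B + 1) := by linarith
  rw [h3, ← hA]
  ring

theorem card_HP_plus [Fintype F] [FiniteDimensional F V] (Q : QuadraticForm F V) (k : ℕ)
    {e f : Fin (k + 1) → V} (hH : IsHyp Q e f) (hV : finrank F V = 2 * (k + 1)) (hS : Sep Q) :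
    Nat.card (HP Q) * Fintype.card F ^ 2
      = ((Fintype.card F ^ (k + 1) - 1) * (Fintype.card F ^ k + 1))
        * Fintype.card F ^ (2 * (k + 1)) := by
  classical
  have : Finite V := Module.finite_of_finite F
  have eqv : HP Q ≃ Σ e : {v : V // Q v = 0 ∧ v ≠ 0},
      {f : V // Q f = 0 ∧ polar Q (e : V) f = 1} :=
    { toFun := fun p => ⟨⟨p.1.1, p.2.1, by
          intro h0
          have := p.2.2.2
          rw [h0] at this
          simp at this⟩, ⟨p.1.2, p.2.2.1, p.2.2.2⟩⟩
      invFun := fun s => ⟨(s.1.1, s.2.1), s.1.2.1, s.2.2.1, s.2.2.2⟩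
      left_inv := fun p => rfl
      right_inv := fun s => rfl }
  have : Fintype {v : V // Q v = 0 ∧ v ≠ 0} := Fintype.ofFinite _
  rw [Nat.card_congr eqv, Nat.card_sigma, Finset.sum_mul]
  have hcV : Nat.card V = Fintype.card F ^ (2 * (k + 1)) := by
    rw [Module.natCard_eq_pow_finrank (K := F), hV, Nat.card_eq_fintype_card]
  have hfib : ∀ e : {v : V // Q v = 0 ∧ v ≠ 0},
      Nat.card {f : V // Q f = 0 ∧ polar Q (e : V) f = 1} * Fintype.card F ^ 2
        = Fintype.card F ^ (2 * (k + 1)) := by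
    intro e
    rw [pow_two, ← mul_assoc, card_fibre Q hS e.2.1 e.2.2, hcV]
  rw [Finset.sum_congr rfl (fun e _ => hfib e), Finset.sum_const, Finset.card_univ, smul_eq_mul,
    Fintype.card_eq_nat_card, card_sing_ne_plus Q k hH hV]

/-- the complement of a hyperbolic pair in a hyperbolic space is hyperbolic -/
theorem hyp_perp2 [Fintype F] [FiniteDimensional F V] (Q : QuadraticForm F V) (k : ℕ)
    {e f : Fin (k + 1) → V} (hH : IsHyp Q e f) (hV : finrank F V = 2 * (k + 1)) (hS : Sep Q)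
    (p : HP Q) :
    ∃ e' f' : Fin k → perp2 (polarBilin Q) p.1.1 p.1.2,
      IsHyp (res Q (perp2 (polarBilin Q) p.1.1 p.1.2)) e' f' := by
  classical
  have hfr := finrank_perp2' p.2.1 p.2.2.1 p.2.2.2
  have hS' := sep_perp2 hS p.2.1 p.2.2.1 p.2.2.2
  cases k with
  | zero =>
    exact ⟨Fin.elim0, Fin.elim0, fun i => i.elim0, fun i => i.elim0, fun i => i.elim0,
      fun i => i.elim0, fun i => i.elim0⟩
  | succ m =>
    rcases exists_hyp_even m _ (res Q (perp2 (polarBilin Q) p.1.1 p.1.2)) (by omega) hS' with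
      h | ⟨e', f', x, y, ζ, hH', hE, horth⟩
    · exact h
    · exfalso
      have hH2 := isHyp_cons p.2.1 p.2.2.1 p.2.2.2 hH'
      have hE2 : IsEll Q (x : V) (y : V) ζ := hE
      have hx := (mem_perp2 _ _ _ _).mp x.2
      have hy := (mem_perp2 _ _ _ _).mp y.2
      have horth2 : ∀ i, polar Q ((Fin.cons p.1.1 (fun i => (e' i : V)) : Fin (m + 1) → V) i)
            (x : V) = 0 ∧
          polar Q ((Fin.cons p.1.1 (fun i => (e' i : V)) : Fin (m + 1) → V) i) (y : V) = 0 ∧
          polar Q ((Fin.cons p.1.2 (fun i => (f' i : V)) : Fin (m + 1) → V) i) (x : V) = 0 ∧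
          polar Q ((Fin.cons p.1.2 (fun i => (f' i : V)) : Fin (m + 1) → V) i) (y : V) = 0 := by
        intro i
        induction i using Fin.cases with
        | zero =>
          simp only [Fin.cons_zero]
          exact ⟨hx.1, hy.1, hx.2, hy.2⟩
        | succ i =>
          simp only [Fin.cons_succ]
          exact horth i
      have hM := card_M Q hH2 hE2 horth2 hV
      have hP := card_P Q hH hV
      exact NP_ne_NM (Fintype.card F) (m + 1) Fintype.one_lt_card (by rw [← hP, ← hM])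

theorem card_HS_plus [Fintype F] (h : ℕ) : ∀ (k : ℕ) (V : Type u) [AddCommGroup V] [Module F V]
    [FiniteDimensional F V] (Q : QuadraticForm F V), finrank F V = 2 * k → Sep Q →
    (∃ e f : Fin k → V, IsHyp Q e f) → h ≤ k →
    Nat.card (HS Q h) * Fintype.card F ^ (2 * h)
      = ∏ t ∈ Finset.range h,
          (((Fintype.card F ^ (k - t) - 1) * (Fintype.card F ^ (k - t - 1) + 1))
            * Fintype.card F ^ (2 * (k - t))) := by
  induction h with
  | zero =>
    intro k V _ _ _ Q hV hS _ hk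
    have : Nat.card (HS Q 0) = 1 := by
      rw [Nat.card_eq_one_iff_unique]
      refine ⟨⟨?_⟩, ⟨⟨(Fin.elim0, Fin.elim0), fun i => i.elim0, fun i => i.elim0,
        fun i => i.elim0, fun i => i.elim0, fun i => i.elim0⟩⟩⟩
      rintro ⟨⟨a, b⟩, _⟩ ⟨⟨a', b'⟩, _⟩
      apply Subtype.ext
      apply Prod.ext <;> exact Subsingleton.elim _ _
    rw [this]
    simp
  | succ h ih =>
    intro k V _ _ _ Q hV hS hhyp hk
    classical
    have : Finite V := Module.finite_of_finite F
    obtain ⟨k', rfl⟩ : ∃ k', k = k' + 1 := ⟨k - 1, by omega⟩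
    obtain ⟨e, f, hH⟩ := hhyp
    have : Fintype (HP Q) := Fintype.ofFinite _
    have e1 := Nat.card_congr (Equiv.sigmaFiberEquiv (fst Q h))
    rw [← e1, Nat.card_sigma]
    have hfib : ∀ p : HP Q, Nat.card {s : HS Q (h + 1) // fst Q h s = p}
        * Fintype.card F ^ (2 * h)
        = ∏ t ∈ Finset.range h,
          (((Fintype.card F ^ (k' - t) - 1) * (Fintype.card F ^ (k' - t - 1) + 1))
            * Fintype.card F ^ (2 * (k' - t))) := by
      intro p
      rw [Nat.card_congr (fibEquiv Q h p)]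
      exact ih k' _ (res Q _) (by have := finrank_perp2' p.2.1 p.2.2.1 p.2.2.2; omega)
        (sep_perp2 hS p.2.1 p.2.2.1 p.2.2.2) (hyp_perp2 Q k' hH hV hS p) (by omega)
    have h2h : 2 * (h + 1) = 2 * h + 2 := by ring
    rw [Finset.prod_range_succ', h2h, pow_add, ← mul_assoc, Finset.sum_mul,
      Finset.sum_congr rfl (fun p _ => hfib p), Finset.sum_const, Finset.card_univ, smul_eq_mul,
      Fintype.card_eq_nat_card]
    have hP := card_HP_plus Q k' hH hV hS
    have hprod : ∏ t ∈ Finset.range h,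
          (((Fintype.card F ^ (k' + 1 - (t + 1)) - 1)
            * (Fintype.card F ^ (k' + 1 - (t + 1) - 1) + 1))
            * Fintype.card F ^ (2 * (k' + 1 - (t + 1))))
        = ∏ t ∈ Finset.range h,
          (((Fintype.card F ^ (k' - t) - 1) * (Fintype.card F ^ (k' - t - 1) + 1))
            * Fintype.card F ^ (2 * (k' - t))) := by
      apply Finset.prod_congr rfl
      intro t _
      rw [Nat.add_sub_add_right]
    rw [hprod, Nat.sub_zero, Nat.add_sub_cancel, ← hP]
    ring

end abstract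

section std

variable {F : Type u} [Field F]

theorem q_single (d : ℕ) (c : Fin d ⊕ Fin d) :
    plusQ d F (Pi.single c 1) = 0 := by
  have h := plus_H1 (F := F) d 0 c
  rw [zero_add] at h
  rw [h, map_zero]
  simp

theorem polar_single (d : ℕ) (c c' : Fin d ⊕ Fin d) :
    polar (plusQ d F) (Pi.single c 1) (Pi.single c' 1)
      = (Pi.single c (1 : F) : Fin d ⊕ Fin d → F) c'.swap := by
  unfold QuadraticMap.polar
  rw [plus_H1, q_single, q_single]
  ring

theorem isHyp_std (d : ℕ) :
    IsHyp (plusQ d F) (fun i : Fin d => (Pi.single (Sum.inl i) 1 : Fin d ⊕ Fin d → F))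
      (fun i : Fin d => (Pi.single (Sum.inr i) 1 : Fin d ⊕ Fin d → F)) := by
  refine ⟨fun i => q_single d _, fun i => q_single d _, fun i j => ?_, fun i j => ?_,
    fun i j => ?_⟩
  · rw [polar_single]
    by_cases hij : i = j
    · subst hij
      simp
    · rw [if_neg hij]
      simp [Ne.symm hij]
  · rw [polar_single]
    simp
  · rw [polar_single]
    simp

end std

theorem main : Cfsg.Agent.Lib.Helper40.HPStmt.HypCntJ.{u} := by
  intro F _ _ d h hhd r hr hrq hdvd
  have hV : finrank F (Fin d ⊕ Fin d → F) = 2 * d := by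
    rw [Module.finrank_fintype_fun_eq_card]
    simp
    ring
  have hS := sep_plusQ (F := F) d
  have hc := card_HS_plus (F := F) h d (Fin d ⊕ Fin d → F) (plusQ d F) hV hS
    ⟨_, _, isHyp_std d⟩ hhd
  have hcard : Nat.card (Cfsg.Agent.Lib.Helper40.HPStmt.HSysJ d F h)
      = Nat.card (HS (plusQ d F) h) :=
    Nat.card_congr (Equiv.subtypeEquivRight (fun ef =>
      ⟨fun ⟨a, b, c, d, e⟩ => ⟨a, b, e, c, d⟩, fun ⟨a, b, e, c, d⟩ => ⟨a, b, c, d, e⟩⟩))
  have hprod : r ∣ ∏ t ∈ Finset.range h,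
      (((Fintype.card F ^ (d - t) - 1) * (Fintype.card F ^ (d - t - 1) + 1))
        * Fintype.card F ^ (2 * (d - t))) := by
    rw [← hc, ← hcard]
    exact Dvd.dvd.mul_right hdvd _
  obtain ⟨t, ht, hdt⟩ := (Nat.Prime.prime hr).exists_mem_finset_dvd hprod
  refine ⟨t, Finset.mem_range.mp ht, ?_⟩
  rcases (Nat.Prime.dvd_mul hr).mp hdt with h1 | h1
  · exact h1
  · exact absurd (hr.dvd_of_dvd_pow h1) hrq

end Cfsg.Agent.Lib.Helper90.HPHYPCNTJ
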