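import Mathlib
import Cfsg.Agent.Lib.Helper27.JzStmt

/-!
Piece CNT of S5403: the centraliser in a group of order `2 ^ 9` of an element of order five
normalising it has order `2 ^ 5`, when it has at least three elements and is not everything.
-/

set_option autoImplicit false

namespace Cfsg.Agent.Lib.Helper90.JzCNT

open Cfsg Cfsg.Agent.Lib.Helper27.JzStmt

theorem main : Cnt := by
  intro A _ K a t hK ha hnorm ⟨k0, hk0, hk0a⟩ htK hat ht1 ⟨k1, hk1, hk1a, hk11, hk1t⟩
  classical
  have hfin : Finite K := Nat.finite_of_card_ne_zero (by rw [hK]; norm_num)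
  have hft : Fintype K := Fintype.ofFinite K
  have hnormpow : ∀ n : ℕ, ∀ k ∈ K, a ^ n * k * (a ^ n)⁻¹ ∈ K := by
    intro n
    induction n with
    | zero => intro k hk; simpa using hk
    | succ n ih =>
      intro k hk
      have h := hnorm _ (ih k hk)
      have e : a ^ (n + 1) * k * (a ^ (n + 1))⁻¹ = a * (a ^ n * k * (a ^ n)⁻¹) * a⁻¹ := by
        rw [pow_succ']; group
      rw [e]; exact h
  have hainv : a⁻¹ = a ^ 4 := by
    rw [inv_eq_iff_mul_eq_one, ← pow_succ']
    exact ha
  have hnorm' : ∀ k ∈ K, a⁻¹ * k * a ∈ K := by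
    intro k hk
    have h := hnormpow 4 k hk
    rw [← hainv, inv_inv] at h
    exact h
  let σ : Equiv.Perm K :=
    { toFun := fun k => ⟨a * k * a⁻¹, hnorm k k.2⟩
      invFun := fun k => ⟨a⁻¹ * k * a, hnorm' k k.2⟩
      left_inv := fun k => Subtype.ext (by simp [mul_assoc])
      right_inv := fun k => Subtype.ext (by simp [mul_assoc]) }
  have hσ1 : ∀ k : K, ((σ k : K) : A) = a * k * a⁻¹ := fun k => rfl
  have hσpow : ∀ n : ℕ, ∀ k : K, (((σ ^ n) k : K) : A) = a ^ n * k * (a ^ n)⁻¹ := by
    intro n
    induction n with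
    | zero => intro k; simp
    | succ n ih =>
      intro k
      rw [pow_succ', Equiv.Perm.mul_apply, hσ1, ih k, pow_succ']
      group
  have hσ5 : σ ^ 5 ^ 1 = 1 := by
    ext k
    rw [pow_one, hσpow 5 k, ha]
    simp
  have hp5 : Fact (Nat.Prime 5) := ⟨by norm_num⟩
  have hmod := Equiv.Perm.card_compl_support_modEq hσ5
  have hcardfix : Nat.card ↥(K ⊓ Subgroup.centralizer ({a} : Set A)) = (σ.support)ᶜ.card := by
    have e1 : Nat.card ↥((K ⊓ Subgroup.centralizer ({a} : Set A)).subgroupOf K)
        = Nat.card ↥(K ⊓ Subgroup.centralizer ({a} : Set A)) :=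
      Nat.card_congr (Subgroup.subgroupOfEquivOfLe inf_le_left).toEquiv
    rw [← e1]
    refine Nat.subtype_card _ ?_
    intro k
    rw [Finset.mem_compl, Equiv.Perm.mem_support, not_not, Subgroup.mem_subgroupOf,
      Subgroup.mem_inf, Subgroup.mem_centralizer_iff]
    constructor
    · intro h
      refine ⟨k.2, ?_⟩
      intro x hx
      rw [Set.mem_singleton_iff] at hx
      subst hx
      have h' : x * (k : A) * x⁻¹ = k := by
        have := congrArg Subtype.val h
        rw [hσ1] at this
        exact this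
      calc x * (k : A) = (x * (k : A) * x⁻¹) * x := by group
        _ = (k : A) * x := by rw [h']
    · rintro ⟨-, h⟩
      apply Subtype.ext
      rw [hσ1]
      have h' := h a rfl
      rw [h']
      group
  rw [← hcardfix] at hmod
  have hdvd : Nat.card ↥(K ⊓ Subgroup.centralizer ({a} : Set A)) ∣ 2 ^ 9 := by
    rw [← hK]
    exact Subgroup.card_dvd_of_le inf_le_left
  have hge : 3 ≤ Nat.card ↥(K ⊓ Subgroup.centralizer ({a} : Set A)) := by
    have h3 : ({1, t, k1} : Set A).ncard = 3 :=
      Set.ncard_eq_three.mpr ⟨1, t, k1, ht1.symm, hk11.symm, hk1t.symm, rfl⟩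
    have hsub : ({1, t, k1} : Set A) ⊆
        ((K ⊓ Subgroup.centralizer ({a} : Set A) : Subgroup A) : Set A) := by
      intro x hx
      rcases hx with rfl | rfl | rfl
      · exact Subgroup.one_mem _
      · refine Subgroup.mem_inf.mpr ⟨htK, ?_⟩
        rw [Subgroup.mem_centralizer_iff]
        intro y hy
        rw [Set.mem_singleton_iff] at hy
        subst hy
        exact hat
      · refine Subgroup.mem_inf.mpr ⟨hk1, ?_⟩
        rw [Subgroup.mem_centralizer_iff]
        intro y hy
        rw [Set.mem_singleton_iff] at hy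
        subst hy
        exact hk1a
    have hfinH : (((K ⊓ Subgroup.centralizer ({a} : Set A) : Subgroup A) : Set A)).Finite := by
      have hfinK : ((K : Subgroup A) : Set A).Finite := Set.toFinite _
      exact hfinK.subset (fun x hx => (Subgroup.mem_inf.mp hx).1)
    have h := Set.ncard_le_ncard hsub hfinH
    rw [h3] at h
    rw [← Nat.card_coe_set_eq] at h
    exact h
  have hne : Nat.card ↥(K ⊓ Subgroup.centralizer ({a} : Set A)) ≠ 2 ^ 9 := by
    intro h
    have hle : K ≤ K ⊓ Subgroup.centralizer ({a} : Set A) := by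
      have := Subgroup.eq_of_le_of_card_ge (inf_le_left : K ⊓ Subgroup.centralizer ({a} : Set A) ≤ K)
        (by rw [h, hK])
      rw [this]
    have h1 := (Subgroup.mem_inf.mp (hle hk0)).2
    rw [Subgroup.mem_centralizer_iff] at h1
    exact hk0a (h1 a rfl)
  obtain ⟨j, hj, hj'⟩ := (Nat.dvd_prime_pow Nat.prime_two).mp hdvd
  rw [hj'] at hmod hge hne ⊢
  rw [Fintype.card_eq_nat_card, hK] at hmod
  interval_cases j <;> first | rfl | (exfalso; revert hmod hge hne; decide)

end Cfsg.Agent.Lib.Helper90.JzCNT
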