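import Mathlib
import Cfsg.Agent.Lib.Helper27.JzStmt

/-!
Piece SA of S5403: a normal subgroup meeting the centraliser of `z` trivially is trivial.
-/

set_option autoImplicit false

namespace Cfsg.Agent.Lib.Helper90.JzSA

open Cfsg Cfsg.Agent.Lib.Helper27.JzStmt

/-- an involution without non-trivial fixed points on a finite normal subgroup inverts it -/
theorem inverts {S : Type} [Group S] [Finite S] (N : Subgroup S) (hN : N.Normal) (w : S)
    (hw : w * w = 1) (hfix : ∀ x ∈ N, x * w = w * x → x = 1) :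
    ∀ x ∈ N, w * x * w⁻¹ = x⁻¹ := by
  have hwi : w⁻¹ = w := inv_eq_of_mul_eq_one_left hw
  let f : N → N := fun x =>
    ⟨(x : S)⁻¹ * (w * x * w⁻¹), N.mul_mem (N.inv_mem x.2) (hN.conj_mem _ x.2 w)⟩
  have hinj : Function.Injective f := by
    intro x y hxy
    have h1 : (x : S)⁻¹ * (w * x * w⁻¹) = (y : S)⁻¹ * (w * y * w⁻¹) := congrArg Subtype.val hxy
    have h1' : (x : S)⁻¹ * (w * x) = (y : S)⁻¹ * (w * y) := by
      have := congrArg (· * w) h1
      simpa [mul_assoc] using this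
    have h2 : ((y : S) * (x : S)⁻¹) * w = w * ((y : S) * (x : S)⁻¹) := by
      calc (y : S) * (x : S)⁻¹ * w = y * ((x : S)⁻¹ * (w * x)) * (x : S)⁻¹ := by group
        _ = y * ((y : S)⁻¹ * (w * y)) * (x : S)⁻¹ := by rw [h1']
        _ = w * ((y : S) * (x : S)⁻¹) := by group
    have h3 := hfix _ (N.mul_mem y.2 (N.inv_mem x.2)) h2
    exact Subtype.ext (mul_inv_eq_one.mp h3).symm
  have hsurj : Function.Surjective f := Finite.injective_iff_surjective.mp hinj
  intro y hy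
  obtain ⟨x, hx⟩ := hsurj ⟨y, hy⟩
  have hy' : y = (x : S)⁻¹ * (w * x * w⁻¹) := (congrArg Subtype.val hx).symm
  rw [hy']
  have e : ((x : S)⁻¹ * (w * x * w⁻¹))⁻¹ = w * (x : S)⁻¹ * w⁻¹ * x := by group
  rw [e, hwi]
  calc w * ((x : S)⁻¹ * (w * x * w)) * w = w * (x : S)⁻¹ * w * x * (w * w) := by
        simp only [mul_assoc]
    _ = w * (x : S)⁻¹ * w * x := by rw [hw, mul_one]

theorem main : SA := by
  intro S _ _ z Q hF ⟨g, hgQ, hgne⟩ N hN hfix
  have hz'sq : (g * z * g⁻¹) * (g * z * g⁻¹) = 1 := by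
    calc g * z * g⁻¹ * (g * z * g⁻¹) = g * (z * z) * g⁻¹ := by group
      _ = 1 := by rw [hF.z_sq]; group
  have hfix' : ∀ (c : S), ∀ x ∈ N, x * (c * z * c⁻¹) = (c * z * c⁻¹) * x → x = 1 := by
    intro c x hx hc
    have h1 : c⁻¹ * x * c ∈ N := by
      have := hN.conj_mem x hx c⁻¹
      simpa using this
    have h2 : (c⁻¹ * x * c) * z = z * (c⁻¹ * x * c) := by
      calc c⁻¹ * x * c * z = c⁻¹ * (x * (c * z * c⁻¹)) * c := by group
        _ = c⁻¹ * ((c * z * c⁻¹) * x) * c := by rw [hc]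
        _ = z * (c⁻¹ * x * c) := by group
    have h3 := hfix _ h1 h2
    calc x = c * (c⁻¹ * x * c) * c⁻¹ := by group
      _ = 1 := by rw [h3]; group
  have hinvz := inverts N hN z hF.z_sq hfix
  have hinvz' := inverts N hN (g * z * g⁻¹) hz'sq (hfix' g)
  have hnc : ∃ q ∈ Q, q * (g * z * g⁻¹) ≠ (g * z * g⁻¹) * q := by
    by_contra hcon
    have hall : ∀ q' ∈ Q, (g * z * g⁻¹) * q' = q' * (g * z * g⁻¹) := by
      intro q' hq'
      by_contra h
      exact hcon ⟨q', hq', fun h' => h h'.symm⟩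
    rcases hF.cen_Q _ hgQ hall with h1 | h1
    · apply hF.z_ne
      have e : z = g⁻¹ * (g * z * g⁻¹) * g := by group
      rw [e, h1]; group
    · exact hgne h1
  obtain ⟨q, hq, hqz⟩ := hnc
  have hcomm : q * (g * z * g⁻¹) * q⁻¹ * (g * z * g⁻¹)⁻¹ = z := by
    rcases hF.comm_Q q hq _ hgQ with h | h
    · exfalso
      apply hqz
      have e : q * (g * z * g⁻¹)
          = (q * (g * z * g⁻¹) * q⁻¹ * (g * z * g⁻¹)⁻¹) * ((g * z * g⁻¹) * q) := by group
      rw [e, h, one_mul]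
    · exact h
  have hz'' : (q * g) * z * (q * g)⁻¹ = z * (g * z * g⁻¹) := by
    calc (q * g) * z * (q * g)⁻¹
        = (q * (g * z * g⁻¹) * q⁻¹ * (g * z * g⁻¹)⁻¹) * (g * z * g⁻¹) := by group
      _ = z * (g * z * g⁻¹) := by rw [hcomm]
  rw [Subgroup.eq_bot_iff_forall]
  intro x hx
  apply hfix' (q * g) x hx
  rw [hz'']
  have h1 := hinvz' x hx
  have h2 := hinvz x⁻¹ (N.inv_mem hx)
  have h3 : (z * (g * z * g⁻¹)) * x * (z * (g * z * g⁻¹))⁻¹ = x := by
    calc (z * (g * z * g⁻¹)) * x * (z * (g * z * g⁻¹))⁻¹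
        = z * ((g * z * g⁻¹) * x * (g * z * g⁻¹)⁻¹) * z⁻¹ := by group
      _ = z * x⁻¹ * z⁻¹ := by rw [h1]
      _ = x := by rw [h2, inv_inv]
  calc x * (z * (g * z * g⁻¹))
      = ((z * (g * z * g⁻¹)) * x * (z * (g * z * g⁻¹))⁻¹) * (z * (g * z * g⁻¹)) := by rw [h3]
    _ = (z * (g * z * g⁻¹)) * x := by group

end Cfsg.Agent.Lib.Helper90.JzSA
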