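import Mathlib
import Cfsg.Agent.Lib.Helper27.JzStmt

/-!
Piece SIMPLE of S5403 (second seat): the glue from the four pieces SA, SB, SC, SD to simplicity.
-/

set_option autoImplicit false

namespace Cfsg.Agent.Lib.Helper90.JzSIMPLE

open Cfsg Cfsg.Agent.Lib.Helper27.JzStmt

theorem main : SA → SB → SC → SD → Simple := by
  intro hSA hSB hSC hSD S _ _ z hz Q hQn hself hxs hcard ⟨e⟩ ⟨g, ⟨hgC, hgQ⟩, hgne⟩
  have hz2 : z * z = 1 := by
    have h := pow_orderOf_eq_one z
    rw [hz, pow_two] at h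
    exact h
  have hz1 : z ≠ 1 := by
    intro h
    rw [h, orderOf_one] at hz
    norm_num at hz
  have hmemC : ∀ c : S, c ∈ Subgroup.centralizer ({z} : Set S) ↔ c * z = z * c := by
    intro c
    rw [Subgroup.mem_centralizer_iff]
    constructor
    · intro h
      exact (h z rfl).symm
    · intro h y hy
      rw [Set.mem_singleton_iff] at hy
      subst hy
      exact h.symm
  have hzC : z ∈ Subgroup.centralizer ({z} : Set S) := (hmemC z).mpr rfl
  have hzQ : (⟨z, hzC⟩ : ↥(Subgroup.centralizer ({z} : Set S))) ∈ Q := by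
    apply hself
    rw [Subgroup.mem_centralizer_iff]
    intro q hq
    apply Subtype.ext
    show (q : S) * z = z * (q : S)
    exact (hmemC q).mp q.2
  obtain ⟨Q', hQ'⟩ : ∃ Q' : Subgroup S, Q' = Q.map (Subgroup.centralizer ({z} : Set S)).subtype :=
    ⟨_, rfl⟩
  have hmemQ' : ∀ x : S, x ∈ Q' ↔ ∃ h : x ∈ Subgroup.centralizer ({z} : Set S),
      (⟨x, h⟩ : ↥(Subgroup.centralizer ({z} : Set S))) ∈ Q := by
    intro x
    rw [hQ', Subgroup.mem_map]
    constructor
    · rintro ⟨y, hy, rfl⟩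
      exact ⟨y.2, hy⟩
    · rintro ⟨h, hx⟩
      exact ⟨⟨x, h⟩, hx, rfl⟩
  have hQ'C : Q' ≤ Subgroup.centralizer ({z} : Set S) := by
    intro x hx
    obtain ⟨h, -⟩ := (hmemQ' x).mp hx
    exact h
  have hcen : Nat.card (Subgroup.center ↥Q) = 2 := hxs.2
  have hcomm : commutator ↥Q = Subgroup.center ↥Q := hxs.1.2.2
  have hzcen : (⟨⟨z, hzC⟩, hzQ⟩ : ↥Q) ∈ Subgroup.center ↥Q := by
    rw [Subgroup.mem_center_iff]
    intro q
    apply Subtype.ext
    apply Subtype.ext
    show ((q : ↥(Subgroup.centralizer ({z} : Set S))) : S) * z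
      = z * ((q : ↥(Subgroup.centralizer ({z} : Set S))) : S)
    exact (hmemC _).mp q.1.2
  have hcen2 : ∀ q : ↥Q, q ∈ Subgroup.center ↥Q → q = 1 ∨ q = ⟨⟨z, hzC⟩, hzQ⟩ := by
    intro q hq
    obtain ⟨y, hy1, hy2⟩ := (Nat.card_eq_two_iff' (1 : ↥(Subgroup.center ↥Q))).mp hcen
    by_cases h : q = 1
    · exact Or.inl h
    · right
      have h1 : (⟨q, hq⟩ : ↥(Subgroup.center ↥Q)) = y :=
        hy2 _ (by
          intro h'
          apply h
          exact congrArg Subtype.val h')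
      have h2 : (⟨⟨⟨z, hzC⟩, hzQ⟩, hzcen⟩ : ↥(Subgroup.center ↥Q)) = y :=
        hy2 _ (by
          intro h'
          apply hz1
          have h3 := congrArg (fun t : ↥(Subgroup.center ↥Q) =>
            (((t : ↥Q) : ↥(Subgroup.centralizer ({z} : Set S))) : S)) h'
          simpa using h3)
      exact congrArg Subtype.val (h1.trans h2.symm)
  have hF : Flat S z Q' := by
    refine ⟨hz2, hz1, (hmemQ' z).mpr ⟨hzC, hzQ⟩, ?_, ?_, ?_, ?_, ?_, ?_⟩
    · intro q hq
      exact (hmemC q).mp (hQ'C hq)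
    · intro c hc q hq
      obtain ⟨hqC, hqQ⟩ := (hmemQ' q).mp hq
      have hcC : c ∈ Subgroup.centralizer ({z} : Set S) := (hmemC c).mpr hc
      have h := hQn.conj_mem ⟨q, hqC⟩ hqQ ⟨c, hcC⟩
      exact (hmemQ' _).mpr ⟨Subgroup.mul_mem _ (Subgroup.mul_mem _ hcC hqC)
        (Subgroup.inv_mem _ hcC), h⟩
    · rw [hQ', Subgroup.card_subtype]
      exact hcard
    · intro q hq hall
      obtain ⟨hqC, hqQ⟩ := (hmemQ' q).mp hq
      have h1 : (⟨⟨q, hqC⟩, hqQ⟩ : ↥Q) ∈ Subgroup.center ↥Q := by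
        rw [Subgroup.mem_center_iff]
        intro q'
        apply Subtype.ext
        apply Subtype.ext
        show ((q' : ↥(Subgroup.centralizer ({z} : Set S))) : S) * q
          = q * ((q' : ↥(Subgroup.centralizer ({z} : Set S))) : S)
        exact (hall _ ((hmemQ' _).mpr ⟨q'.1.2, q'.2⟩)).symm
      rcases hcen2 _ h1 with h | h
      · left
        have h3 := congrArg (fun t : ↥Q => ((t : ↥(Subgroup.centralizer ({z} : Set S))) : S)) h
        simpa using h3
      · right
        have h3 := congrArg (fun t : ↥Q => ((t : ↥(Subgroup.centralizer ({z} : Set S))) : S)) h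
        simpa using h3
    · intro q hq q' hq'
      obtain ⟨hqC, hqQ⟩ := (hmemQ' q).mp hq
      obtain ⟨hqC', hqQ'⟩ := (hmemQ' q').mp hq'
      have h0 : ∀ a b : ↥Q, a * b * a⁻¹ * b⁻¹ ∈ Subgroup.center ↥Q := by
        intro a b
        rw [← hcomm, commutator_def, ← commutatorElement_def]
        exact Subgroup.commutator_mem_commutator (Subgroup.mem_top a) (Subgroup.mem_top b)
      have h1 := h0 ⟨⟨q, hqC⟩, hqQ⟩ ⟨⟨q', hqC'⟩, hqQ'⟩
      rcases hcen2 _ h1 with h | h
      · left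
        have h3 := congrArg (fun t : ↥Q => ((t : ↥(Subgroup.centralizer ({z} : Set S))) : S)) h
        simpa using h3
      · right
        have h3 := congrArg (fun t : ↥Q => ((t : ↥(Subgroup.centralizer ({z} : Set S))) : S)) h
        simpa using h3
    · intro c hc hall
      have hcC : c ∈ Subgroup.centralizer ({z} : Set S) := (hmemC c).mpr hc
      have h : (⟨c, hcC⟩ : ↥(Subgroup.centralizer ({z} : Set S))) ∈ Q := by
        apply hself
        rw [Subgroup.mem_centralizer_iff]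
        intro q hq
        apply Subtype.ext
        show (q : S) * c = c * (q : S)
        exact (hall _ ((hmemQ' _).mpr ⟨q.2, hq⟩)).symm
      exact (hmemQ' c).mpr ⟨hcC, h⟩
  have hA5 : IsSimpleGroup (↥(Subgroup.centralizer ({z} : Set S)) ⧸ Q) := by
    have hs : IsSimpleGroup A5 := alternatingGroup.isSimpleGroup (by simp)
    exact e.isSimpleGroup
  have hLL : ∀ L : Subgroup S, Q' ≤ L → L ≤ Subgroup.centralizer ({z} : Set S) →
      (∀ c : S, c * z = z * c → ∀ m ∈ L, c * m * c⁻¹ ∈ L) →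
      L = Q' ∨ L = Subgroup.centralizer ({z} : Set S) := by
    intro L hQL hLC hLn
    have hLCn : (L.subgroupOf (Subgroup.centralizer ({z} : Set S))).Normal := by
      constructor
      intro m hm c
      rw [Subgroup.mem_subgroupOf] at hm ⊢
      exact hLn c ((hmemC c).mp c.2) m hm
    have hmapn : ((L.subgroupOf (Subgroup.centralizer ({z} : Set S))).map
        (QuotientGroup.mk' Q)).Normal := hLCn.map _ (QuotientGroup.mk'_surjective Q)
    rcases hmapn.eq_bot_or_eq_top with h | h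
    · left
      apply le_antisymm _ hQL
      intro x hx
      have hxC := hLC hx
      have h2 : (⟨x, hxC⟩ : ↥(Subgroup.centralizer ({z} : Set S))) ∈ (QuotientGroup.mk' Q).ker := by
        have h1 := (Subgroup.map_eq_bot_iff _).mp h
        exact h1 (Subgroup.mem_subgroupOf.mpr hx)
      rw [QuotientGroup.ker_mk'] at h2
      exact (hmemQ' x).mpr ⟨hxC, h2⟩
    · right
      apply le_antisymm hLC
      intro c hc
      have h1 : QuotientGroup.mk' Q ⟨c, hc⟩ ∈
          (L.subgroupOf (Subgroup.centralizer ({z} : Set S))).map (QuotientGroup.mk' Q) := by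
        rw [h]
        exact Subgroup.mem_top _
      obtain ⟨l, hl, hlc⟩ := Subgroup.mem_map.mp h1
      have h2 : l⁻¹ * ⟨c, hc⟩ ∈ Q := QuotientGroup.eq.mp hlc
      have h3 : ((l⁻¹ * ⟨c, hc⟩ : ↥(Subgroup.centralizer ({z} : Set S))) : S) ∈ L :=
        hQL ((hmemQ' _).mpr ⟨(l⁻¹ * ⟨c, hc⟩ : ↥(Subgroup.centralizer ({z} : Set S))).2, h2⟩)
      have h4 : (l : S) ∈ L := Subgroup.mem_subgroupOf.mp hl
      have h5 : c = (l : S) * ((l⁻¹ * ⟨c, hc⟩ : ↥(Subgroup.centralizer ({z} : Set S))) : S) := by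
        simp
      rw [h5]
      exact L.mul_mem h4 h3
  have h5 : 5 ∣ Nat.card ↥(Subgroup.centralizer ({z} : Set S)) := by
    rw [Subgroup.card_eq_card_quotient_mul_card_subgroup Q, Nat.card_congr e.toEquiv]
    apply Dvd.dvd.mul_right
    have h60 : Nat.card A5 = 60 := by
      rw [nat_card_alternatingGroup, Nat.card_eq_fintype_card, Fintype.card_fin]
      rfl
    rw [h60]
    norm_num
  have hnt : Nontrivial S := ⟨⟨z, 1, hz1⟩⟩
  refine ⟨fun N hN => ?_⟩
  by_cases hNbot : N = ⊥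
  · exact Or.inl hNbot
  · right
    have hfus : ∃ g : S, g * z * g⁻¹ ∈ Q' ∧ g * z * g⁻¹ ≠ z :=
      ⟨g, (hmemQ' _).mpr ⟨hgC, hgQ⟩, hgne⟩
    have h1 : ∃ x ∈ N, x ≠ 1 ∧ x * z = z * x := by
      by_contra hcon
      apply hNbot
      apply hSA S z Q' hF hfus N hN
      intro x hx hxz
      by_contra hx1
      exact hcon ⟨x, hx, hx1, hxz⟩
    have hzN : z ∈ N := hSB S z Q' hF N hN h1
    have hz'N : g * z * g⁻¹ ∈ N := hN.conj_mem z hzN g
    have hz'1 : g * z * g⁻¹ ≠ 1 := by
      intro h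
      apply hz1
      have e' : z = g⁻¹ * (g * z * g⁻¹) * g := by group
      rw [e', h]
      group
    have hQN : Q' ≤ N :=
      hSC S z Q' hF h5 N hN hzN ⟨_, hz'N, (hmemQ' _).mpr ⟨hgC, hgQ⟩, hz'1, hgne⟩
    exact hSD S z Q' hF hLL hfus N hN hQN

end Cfsg.Agent.Lib.Helper90.JzSIMPLE
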