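import Mathlib
import Cfsg.Agent.Lib.Helper27.JzStmt

/-!
Piece SL of S5403: in a subgroup `N` containing `Q` in which the centraliser of `z` is `Q`, no
conjugate of `z` under `N` other than `z` lies in `Q`.
-/

set_option autoImplicit false

namespace Cfsg.Agent.Lib.Helper90.JzSL

open Cfsg Cfsg.Agent.Lib.Helper27.JzStmt

theorem main : SL := by
  intro S _ _ z Q hF N hQN hNC n hn hz'Q
  by_contra hne
  obtain ⟨z', hz'⟩ : ∃ z' : S, z' = n * z * n⁻¹ := ⟨_, rfl⟩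
  rw [← hz'] at hz'Q hne
  have hz'1 : z' ≠ 1 := by
    intro h
    apply hF.z_ne
    have e : z = n⁻¹ * z' * n := by rw [hz']; group
    rw [e, h]; group
  have hq0 : ∃ q0 ∈ Q, z' * q0 ≠ q0 * z' := by
    by_contra hcon
    have hall : ∀ q' ∈ Q, z' * q' = q' * z' := by
      intro q' hq'
      by_contra h
      exact hcon ⟨q', hq', h⟩
    rcases hF.cen_Q z' hz'Q hall with h | h
    · exact hz'1 h
    · exact hne h
  obtain ⟨q0, hq0Q, hq0z'⟩ := hq0
  have hcm : ∀ q ∈ Q, ∀ q' ∈ Q, q * q' ≠ q' * q → q * q' * q⁻¹ * q'⁻¹ = z := by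
    intro q hq q' hq' hnc
    rcases hF.comm_Q q hq q' hq' with h | h
    · exfalso
      apply hnc
      have e : q * q' = (q * q' * q⁻¹ * q'⁻¹) * (q' * q) := by group
      rw [e, h, one_mul]
    · exact h
  have ha : ∀ r ∈ Q, r * z' = z' * r → n⁻¹ * r * n ∈ Q := by
    intro r hr hrz
    apply hNC
    · exact N.mul_mem (N.mul_mem (N.inv_mem hn) (hQN hr)) hn
    · calc n⁻¹ * r * n * z = n⁻¹ * (r * (n * z * n⁻¹)) * n := by group
        _ = n⁻¹ * ((n * z * n⁻¹) * r) * n := by rw [← hz', hrz]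
        _ = z * (n⁻¹ * r * n) := by group
  have hb : ∀ r1 ∈ Q, r1 * z' = z' * r1 → ∀ r2 ∈ Q, r2 * z' = z' * r2 → r1 * r2 = r2 * r1 := by
    intro r1 hr1 h1 r2 hr2 h2
    by_contra hnc
    have hc := hcm r1 hr1 r2 hr2 hnc
    have hnc' : (n⁻¹ * r1 * n) * (n⁻¹ * r2 * n) ≠ (n⁻¹ * r2 * n) * (n⁻¹ * r1 * n) := by
      intro h
      apply hnc
      calc r1 * r2 = n * ((n⁻¹ * r1 * n) * (n⁻¹ * r2 * n)) * n⁻¹ := by group
        _ = n * ((n⁻¹ * r2 * n) * (n⁻¹ * r1 * n)) * n⁻¹ := by rw [h]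
        _ = r2 * r1 := by group
    have hc' := hcm _ (ha r1 hr1 h1) _ (ha r2 hr2 h2) hnc'
    have e : (n⁻¹ * r1 * n) * (n⁻¹ * r2 * n) * (n⁻¹ * r1 * n)⁻¹ * (n⁻¹ * r2 * n)⁻¹
        = n⁻¹ * (r1 * r2 * r1⁻¹ * r2⁻¹) * n := by group
    rw [e, hc] at hc'
    apply hne
    calc z' = n * z * n⁻¹ := hz'
      _ = n * (n⁻¹ * z * n) * n⁻¹ := by rw [hc']
      _ = z := by group
  have hc : ∀ q ∈ Q, q * z' ≠ z' * q → (q0⁻¹ * q) * z' = z' * (q0⁻¹ * q) := by
    intro q hq hqz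
    have h1 := hcm q hq z' hz'Q hqz
    have h2 := hcm q0 hq0Q z' hz'Q (fun h => hq0z' h.symm)
    have h3 : q * z' * q⁻¹ = q0 * z' * q0⁻¹ := by
      have h4 : q * z' * q⁻¹ * z'⁻¹ = q0 * z' * q0⁻¹ * z'⁻¹ := by rw [h1, h2]
      exact mul_right_cancel h4
    calc q0⁻¹ * q * z' = q0⁻¹ * (q * z' * q⁻¹) * q := by group
      _ = q0⁻¹ * (q0 * z' * q0⁻¹) * q := by rw [h3]
      _ = z' * (q0⁻¹ * q) := by group
  have hd : ∀ q ∈ Q, q * z' = z' * q → q * q0 = q0 * q → q = 1 ∨ q = z := by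
    intro q hq hqz hqq0
    apply hF.cen_Q q hq
    intro q' hq'
    by_cases h : q' * z' = z' * q'
    · exact hb q hq hqz q' hq' h
    · have h1 := hc q' hq' h
      have h2 := hb q hq hqz (q0⁻¹ * q') (Q.mul_mem (Q.inv_mem hq0Q) hq') h1
      calc q * q' = (q * q0) * (q0⁻¹ * q') := by group
        _ = q0 * (q * (q0⁻¹ * q')) := by rw [hqq0]; group
        _ = q0 * ((q0⁻¹ * q') * q) := by rw [h2]
        _ = q' * q := by group
  have he : ∀ q ∈ Q, q * z' = z' * q → q = 1 ∨ q = z ∨ q = z' ∨ q = z' * z := by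
    intro q hq hqz
    by_cases h : q * q0 = q0 * q
    · rcases hd q hq hqz h with h1 | h1
      · exact Or.inl h1
      · exact Or.inr (Or.inl h1)
    · have h1 := hcm q hq q0 hq0Q h
      have h2 := hcm z' hz'Q q0 hq0Q hq0z'
      have h3 : q * q0 * q⁻¹ = z' * q0 * z'⁻¹ := by
        have h4 : q * q0 * q⁻¹ * q0⁻¹ = z' * q0 * z'⁻¹ * q0⁻¹ := by rw [h1, h2]
        exact mul_right_cancel h4
      have h4 : (z'⁻¹ * q) * q0 = q0 * (z'⁻¹ * q) := by
        calc z'⁻¹ * q * q0 = z'⁻¹ * (q * q0 * q⁻¹) * q := by group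
          _ = z'⁻¹ * (z' * q0 * z'⁻¹) * q := by rw [h3]
          _ = q0 * (z'⁻¹ * q) := by group
      have h5 : (z'⁻¹ * q) * z' = z' * (z'⁻¹ * q) := by
        calc z'⁻¹ * q * z' = z'⁻¹ * (q * z') := by group
          _ = z'⁻¹ * (z' * q) := by rw [hqz]
          _ = z' * (z'⁻¹ * q) := by group
      rcases hd _ (Q.mul_mem (Q.inv_mem hz'Q) hq) h5 h4 with h6 | h6
      · right; right; left
        calc q = z' * (z'⁻¹ * q) := by group
          _ = z' := by rw [h6, mul_one]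
      · right; right; right
        calc q = z' * (z'⁻¹ * q) := by group
          _ = z' * z := by rw [h6]
  have hex : ∀ q : Q, ∃ i : Fin 8,
      (![1, z, z', z' * z, q0, q0 * z, q0 * z', q0 * (z' * z)] : Fin 8 → S) i = (q : S) := by
    intro ⟨q, hq⟩
    by_cases h : q * z' = z' * q
    · rcases he q hq h with h1 | h1 | h1 | h1
      · exact ⟨0, h1.symm⟩
      · exact ⟨1, h1.symm⟩
      · exact ⟨2, h1.symm⟩
      · exact ⟨3, h1.symm⟩
    · have h1 := hc q hq h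
      have e : q0 * (q0⁻¹ * q) = q := by group
      rcases he _ (Q.mul_mem (Q.inv_mem hq0Q) hq) h1 with h2 | h2 | h2 | h2
      · exact ⟨4, by rw [h2, mul_one] at e; exact e⟩
      · exact ⟨5, by rw [h2] at e; exact e⟩
      · exact ⟨6, by rw [h2] at e; exact e⟩
      · exact ⟨7, by rw [h2] at e; exact e⟩
  choose g hg using hex
  have hinj : Function.Injective g := by
    intro q1 q2 h
    apply Subtype.ext
    rw [← hg q1, ← hg q2, h]
  have hle := Nat.card_le_card_of_injective g hinj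
  rw [hF.card_Q, Nat.card_fin] at hle
  norm_num at hle

end Cfsg.Agent.Lib.Helper90.JzSL
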