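import Mathlib

set_option autoImplicit false

namespace Cfsg.Agent.Lib.Helper90.SylowConj

/-- Elements of a `p`-subgroup can be conjugated simultaneously into a given Sylow subgroup. -/
theorem exists_conj_le_sylow {K : Type*} [Group K] [Finite K] {p : ℕ} [Fact p.Prime]
    (P : Sylow p K) (R : Subgroup K) (hR : IsPGroup p R) :
    ∃ a : K, ∀ r ∈ R, a⁻¹ * r * a ∈ (P : Subgroup K) := by
  obtain ⟨P', hP'⟩ := hR.exists_le_sylow
  obtain ⟨a, ha⟩ := MulAction.exists_smul_eq K P P'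
  refine ⟨a, fun r hr => ?_⟩
  have h1 : r ∈ (P' : Subgroup K) := hP' hr
  rw [← ha, Sylow.coe_subgroup_smul, Subgroup.mem_pointwise_smul_iff_inv_smul_mem] at h1
  simpa [MulAut.smul_def, mul_assoc] using h1

/-- The cyclic group generated by an element of 2-power order is a 2-group. -/
theorem isPGroup_zpowers {K : Type*} [Group K] {p : ℕ} [Fact p.Prime] (x : K) (k : ℕ)
    (hx : x ^ p ^ k = 1) : IsPGroup p (Subgroup.zpowers x) := by
  intro g
  obtain ⟨i, hi⟩ := Subgroup.mem_zpowers_iff.mp g.2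
  refine ⟨k, ?_⟩
  ext
  simp only [Subgroup.coe_pow, Subgroup.coe_one]
  rw [← hi, ← zpow_natCast, ← zpow_mul, mul_comm, zpow_mul, zpow_natCast, hx, one_zpow]

/-- An element of `p`-power order is conjugate into any Sylow `p`-subgroup. -/
theorem exists_conj_mem_sylow {K : Type*} [Group K] [Finite K] {p : ℕ} [Fact p.Prime]
    (P : Sylow p K) (x : K) (k : ℕ) (hx : x ^ p ^ k = 1) :
    ∃ a : K, a⁻¹ * x * a ∈ (P : Subgroup K) := by
  obtain ⟨a, ha⟩ := exists_conj_le_sylow P (Subgroup.zpowers x) (isPGroup_zpowers x k hx)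
  exact ⟨a, ha x (Subgroup.mem_zpowers x)⟩

/-- Relative version: if a Sylow subgroup `P` of `G` lies in `H`, an element of `H` of `p`-power
order is conjugate into `P` by an element of `H`. -/
theorem exists_conj_mem_sylow_of_le {G : Type*} [Group G] [Finite G] {p : ℕ} [Fact p.Prime]
    (P : Sylow p G) (H : Subgroup G) (hPH : (P : Subgroup G) ≤ H) (x : G) (hxH : x ∈ H) (k : ℕ)
    (hx : x ^ p ^ k = 1) : ∃ a ∈ H, a⁻¹ * x * a ∈ (P : Subgroup G) := by
  have hx' : (⟨x, hxH⟩ : H) ^ p ^ k = 1 := by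
    ext
    simpa using hx
  obtain ⟨a, ha⟩ := exists_conj_mem_sylow (P.subtype hPH) (⟨x, hxH⟩ : H) k hx'
  refine ⟨(a : G), a.2, ?_⟩
  rw [Sylow.coe_subtype, Subgroup.mem_subgroupOf] at ha
  simpa using ha

end Cfsg.Agent.Lib.Helper90.SylowConj
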