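import Mathlib
import Cfsg.Agent.Lib.Helper41.TMStmt
import Cfsg.Agent.Lib.Helper90.HalfOddGen

/-!
S5987 piece HALFODD (helper90): the minus form, from the form-free `HalfOddGen.halfOdd_gen`.
-/

set_option autoImplicit false

universe u

namespace Cfsg.Agent.Lib.Helper90.TMHALFODD

open Cfsg.Agent.Lib.Helper44.NegPairs

theorem main : Cfsg.Agent.Lib.Helper41.TMStmt.HalfOdd.{u} := by
  intro F _ _ a b hab p _ _ d r _ hr2 hrp hiodd x hx hxr E hE hnd hfix
  exact Cfsg.Agent.Lib.Helper90.HalfOddGen.halfOdd_gen (p := p) (minusQ (d - 1) F a b) r hr2 hrp hiodd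
    x hx hxr E hE hnd hfix

end Cfsg.Agent.Lib.Helper90.TMHALFODD
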