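import Mathlib
import Cfsg.Agent.Lib.Helper41.TMStmt
import Cfsg.Agent.Lib.Helper90.TypeEvenGen

/-!
S5987 piece TYPEEVEN (helper90): the minus form, from the form-free `TypeEvenGen.typeEven_gen`.
-/

set_option autoImplicit false

universe u

namespace Cfsg.Agent.Lib.Helper90.TMTYPEEVEN

open Cfsg.Agent.Lib.Helper44.NegPairs

theorem main : Cfsg.Agent.Lib.Helper41.TMStmt.TypeEven.{u} := by
  intro F _ _ a b hab p _ _ d r _ hr2 hrp hev x hx hxr E hStab hND hfix
  exact Cfsg.Agent.Lib.Helper90.TypeEvenGen.typeEven_gen (minusQ (d - 1) F a b) r hr2 hev x hx hxr E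
    hStab hND hfix

end Cfsg.Agent.Lib.Helper90.TMTYPEEVEN
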